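import Cfsg.Agent.H90.Invol.Mask
import Cfsg.Agent.H46.Order
import Mathlib.Data.Nat.BitIndices

/-!
# What the mask scans mean

A mask gives a `ZMod 2`-valued linear form on the roots; a scan of a word gives the image of the form and, for reduced
words, the number of inverted positive roots on which the form vanishes.
-/

set_option autoImplicit false

namespace Cfsg.Agent.H90.Invol

open Cfsg.Lie Cfsg.Agent.H46

variable {D : ChevalleyDatum} (G : Good D)

/-- The coordinate vector of a mask. -/
def bitv (D : ChevalleyDatum) (ε : ℕ) : Fin D.rank → ZMod 2 := fun k => if ε.testBit k then 1 else 0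

/-- The value of a form on a root. -/
def par (v : Fin D.rank → ZMod 2) (r : ℕ) : ZMod 2 := ∑ k, v k * (G.cartForm k (G.rc r) : ZMod 2)

/-- Action of a fundamental reflection on forms. -/
def refV (v : Fin D.rank → ZMod 2) (i : Fin D.rank) : Fin D.rank → ZMod 2 :=
  fun k => v k + if k = i then par G v (D.simple i) else 0

open Classical in
/-- The number of inverted positive roots on which a form vanishes. -/
noncomputable def nInvS (v : Fin D.rank → ZMod 2) (σ : Equiv.Perm (Fin D.nroots)) : ℕ :=
  (Finset.univ.filter fun r : Fin D.nroots => D.IsPosRoot r ∧ D.IsNegRoot (σ r) ∧ par G v r = 0).card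

/-- `σ` carries the form of `ε` to the form of `ε'`. -/
def Maps (ε : ℕ) (σ : Equiv.Perm (Fin D.nroots)) (ε' : ℕ) : Prop :=
  ∀ r : Fin D.nroots, par G (bitv D ε') (σ r) = par G (bitv D ε) r

/-- The properties of a parity table. -/
structure TblOk (tbl : ℕ) : Prop where
  spec : ∀ ε < 2 ^ D.rank, ∀ i < D.rank, parTab tbl ε i = parSlow G.tab D.rank ε i
  nondeg : ∀ ε < 2 ^ D.rank, ε ≠ 0 → ∃ i < D.rank, parTab tbl ε i = true

theorem int_cast_eq_one_iff (x : ℤ) : (x : ZMod 2) = 1 ↔ x % 2 = 1 := by
  rw [← Int.cast_one, ZMod.intCast_eq_intCast_iff']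
  norm_num

include G

theorem par_add {r s u : ℕ} (a b : ℤ) (v : Fin D.rank → ZMod 2) (h : G.rc u = a • G.rc r + b • G.rc s) :
    par G v u = (a : ZMod 2) * par G v r + (b : ZMod 2) * par G v s := by
  simp only [par, h, G.cartForm_add, G.cartForm_smul, Finset.mul_sum, ← Finset.sum_add_distrib]
  refine Finset.sum_congr rfl fun k _ => ?_
  push_cast
  ring

theorem par_simple (v : Fin D.rank → ZMod 2) (i : Fin D.rank) :
    par G v (D.simple i) = ∑ k, v k * (G.tab.cm k i : ZMod 2) := by
  simp [par, G.rc_simple i.2, G.cartForm_single]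

theorem par_reflect (v : Fin D.rank → ZMod 2) (i : Fin D.rank) {s : ℕ} (hs : s < D.nroots) :
    par G (refV G v i) (D.reflectRoot i s) = par G v s := by
  have e : ∀ k : Fin D.rank, refV G v i k * (G.cartForm k (G.rc (D.reflectRoot i s)) : ZMod 2) =
      v k * (G.cartForm k (G.rc s) : ZMod 2) - (D.cartan i s : ZMod 2) * (v k * (G.tab.cm k i : ZMod 2)) +
        if k = i then -(par G v (D.simple i)) * (D.cartan i s : ZMod 2) else 0 := by
    intro k
    rw [G.cartForm_rc_reflect i.2 hs, refV]
    by_cases h : k = i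
    · subst h
      simp only [if_true, G.cartan_eq hs k.2, G.cm_self k.2]
      push_cast
      ring
    · simp only [h, if_false]
      push_cast
      ring
  simp only [par] at e ⊢
  rw [Finset.sum_congr rfl fun k _ => e k, Finset.sum_add_distrib, Finset.sum_sub_distrib, Finset.sum_ite_eq']
  simp only [Finset.mem_univ, if_true]
  rw [← Finset.mul_sum]
  have h2 := par_simple G v i
  simp only [par] at h2
  rw [h2]
  linear_combination (-(D.cartan i s : ZMod 2) * ∑ k, v k * (G.tab.cm k i : ZMod 2)) *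
    (by decide : (2 : ZMod 2) = 0)

variable {tbl : ℕ} (hT : TblOk G tbl)
include hT

theorem parTab_iff {ε : ℕ} (hε : ε < 2 ^ D.rank) (i : Fin D.rank) :
    parTab tbl ε i = true ↔ par G (bitv D ε) (D.simple i) = 1 := by
  rw [hT.spec ε hε i i.2, parSlow, decide_eq_true_eq, ← int_cast_eq_one_iff, sumR_eq_sum_fin, Int.cast_sum,
    par_simple]
  refine Eq.congr_left (Finset.sum_congr rfl fun k _ => ?_)
  cases h : ε.testBit k <;> simp [bitv, h]

theorem scanOne_spec {ε : ℕ} (hε : ε < 2 ^ D.rank) (i : Fin D.rank) (n : ℕ) :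
    (scanOne tbl i (ε, n)).1 < 2 ^ D.rank ∧ bitv D (scanOne tbl i (ε, n)).1 = refV G (bitv D ε) i ∧
      (scanOne tbl i (ε, n)).2 = n + if par G (bitv D ε) (D.simple i) = 0 then 1 else 0 := by
  by_cases h : parTab tbl ε i = true
  · have h1 := (parTab_iff G hT hε i).1 h
    simp only [scanOne, h, cond_true, h1, one_ne_zero, if_false, add_zero]
    refine ⟨Nat.xor_lt_two_pow hε (Nat.pow_lt_pow_right Nat.one_lt_two i.2), funext fun k => ?_, trivial⟩
    simp only [refV, bitv, Nat.testBit_xor, Nat.testBit_two_pow, h1]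
    by_cases hk : k = i
    · subst hk; cases ε.testBit k <;> simp; decide
    · cases ε.testBit k <;> simp [hk, Fin.val_ne_of_ne (Ne.symm hk)]
  · have h1 : par G (bitv D ε) (D.simple i) = 0 := by
      have h2 : par G (bitv D ε) (D.simple i) ≠ 1 := fun e => h ((parTab_iff G hT hε i).2 e)
      revert h2; generalize par G (bitv D ε) (D.simple i) = x; revert x; decide
    simp only [Bool.not_eq_true] at h
    simp only [scanOne, h, cond_false, h1, if_true]
    exact ⟨hε, funext fun k => by simp [refV, h1], trivial⟩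

theorem scan_cons (i : ℕ) (w : List ℕ) (ε : ℕ) : scan tbl (i :: w) ε = scanOne tbl i (scan tbl w ε) := rfl

theorem scan_spec {ε : ℕ} (hε : ε < 2 ^ D.rank) : ∀ w : List ℕ, (∀ i ∈ w, i < D.rank) →
    (scan tbl w ε).1 < 2 ^ D.rank ∧ Maps G ε (G.permW w) (scan tbl w ε).1
  | [], _ => ⟨hε, fun _ => rfl⟩
  | i :: w, h => by
    obtain ⟨h1, h2⟩ := scan_spec hε w fun j hj => h j (List.mem_cons_of_mem _ hj)
    have hi := h i List.mem_cons_self
    obtain ⟨h3, h4, -⟩ := scanOne_spec G hT h1 ⟨i, hi⟩ (scan tbl w ε).2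
    rw [scan_cons G hT]
    refine ⟨h3, fun r => ?_⟩
    rw [h4, G.permW_cons, Equiv.Perm.mul_apply, Good.sPermN, dif_pos hi, G.sPerm_apply]
    rw [par_reflect G _ ⟨i, hi⟩ (G.permW w r).2]
    exact h2 r

omit hT in
theorem scan_append (u w : List ℕ) (ε : ℕ) :
    (scan tbl (u ++ w) ε).1 = (scan tbl u (scan tbl w ε).1).1 ∧
      (scan tbl (u ++ w) ε).2 = (scan tbl w ε).2 + (scan tbl u (scan tbl w ε).1).2 := by
  induction u with
  | nil => exact ⟨rfl, rfl⟩
  | cons i u ih =>
    simp only [scan, List.cons_append, List.foldr_cons] at ih ⊢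
    simp only [scanOne]
    rw [ih.1, ih.2]
    cases parTab tbl (List.foldr (scanOne tbl) ((List.foldr (scanOne tbl) (ε, 0) w).1, 0) u).1 i <;>
      simp [add_assoc]

omit hT in
theorem nInv_cons_le (i : ℕ) (w : List ℕ) :
    G.nInv (G.permW (i :: w)) ≤ G.nInv (G.permW w) + 1 ∧
      ∀ (hi : i < D.rank), ¬ D.IsPosRoot ((G.permW w)⁻¹ (G.simpleF ⟨i, hi⟩)) →
        G.nInv (G.permW (i :: w)) ≤ G.nInv (G.permW w) := by
  classical
  by_cases hi : i < D.rank
  swap
  · refine ⟨?_, fun h => absurd h hi⟩
    rw [G.permW_cons, Good.sPermN, dif_neg hi, one_mul]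
    omega
  set r := (G.permW w)⁻¹ (G.simpleF ⟨i, hi⟩)
  have hsub : (Finset.univ.filter fun s : Fin D.nroots => D.IsPosRoot s ∧ D.IsNegRoot (G.permW (i :: w) s)) ⊆
      insert r (Finset.univ.filter fun s : Fin D.nroots => D.IsPosRoot s ∧ D.IsNegRoot (G.permW w s)) := by
    intro s hs
    simp only [Finset.mem_filter, Finset.mem_univ, true_and, Finset.mem_insert] at hs ⊢
    by_contra hc
    simp only [not_or, not_and] at hc
    have hpos := (G.isPosRoot_iff_not_neg (G.permW w s).2).2 (hc.2 hs.1)
    refine G.not_isNegRoot (G.isPosRoot_reflect hi hpos fun e => hc.1 ?_) ?_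
    · exact (Equiv.symm_apply_eq _).2 (Fin.ext e.symm) |>.symm
    · have := hs.2
      rwa [G.permW_cons, Equiv.Perm.mul_apply, Good.sPermN, dif_pos hi, G.sPerm_apply] at this
  refine ⟨le_trans (Finset.card_le_card hsub) (Finset.card_insert_le _ _), fun _ hr => Finset.card_le_card fun s hs => ?_⟩
  rcases Finset.mem_insert.1 (hsub hs) with rfl | h
  · exact absurd (Finset.mem_filter.1 hs).2.1 hr
  · exact h

omit hT in
theorem nInv_le_length : ∀ w : List ℕ, G.nInv (G.permW w) ≤ w.length
  | [] => le_of_eq G.nInv_one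
  | i :: w => le_trans (nInv_cons_le G i w).1 (Nat.add_le_add_right (nInv_le_length w) 1)

/-- On a reduced word the scan counts the inverted roots killed by the form. -/
theorem scan_count {ε : ℕ} (hε : ε < 2 ^ D.rank) : ∀ w : List ℕ, (∀ i ∈ w, i < D.rank) →
    G.nInv (G.permW w) = w.length → nInvS G (bitv D ε) (G.permW w) = (scan tbl w ε).2
  | [], _, _ => by
    classical
    rw [show (scan tbl [] ε).2 = 0 from rfl, nInvS, Finset.card_eq_zero, Finset.filter_eq_empty_iff]
    rintro r - ⟨h1, h2, -⟩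
    exact G.not_isNegRoot h1 h2
  | i :: w, h, hlen => by
    classical
    have hw := fun j hj => h j (List.mem_cons_of_mem i hj)
    have hi := h i List.mem_cons_self
    have hle := nInv_le_length G w
    have h1 := nInv_cons_le G i w
    rw [List.length_cons] at hlen
    have ih := scan_count hε w hw (by have := h1.1; omega)
    set r := (G.permW w)⁻¹ (G.simpleF ⟨i, hi⟩) with hr
    have hrpos : D.IsPosRoot r := by
      by_contra hc
      have := h1.2 hi hc
      omega
    have hσr : G.permW w r = G.simpleF ⟨i, hi⟩ := Equiv.apply_symm_apply _ _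
    obtain ⟨hs1, hs2⟩ := scan_spec G hT hε w hw
    obtain ⟨-, -, h5⟩ := scanOne_spec G hT hs1 ⟨i, hi⟩ (scan tbl w ε).2
    have hpar : par G (bitv D (scan tbl w ε).1) (D.simple i) = par G (bitv D ε) r := by
      rw [← hs2 r, hσr]; rfl
    rw [scan_cons G hT, h5, hpar, ← ih, nInvS, nInvS]
    have hset : (Finset.univ.filter fun s : Fin D.nroots => D.IsPosRoot s ∧ D.IsNegRoot (G.permW (i :: w) s)) =
        insert r (Finset.univ.filter fun s : Fin D.nroots => D.IsPosRoot s ∧ D.IsNegRoot (G.permW w s)) := by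
      symm
      refine (Finset.eq_of_subset_of_card_le (fun s hs => ?_) ?_).symm
      · simp only [Finset.mem_filter, Finset.mem_univ, true_and, Finset.mem_insert] at hs ⊢
        by_contra hc
        simp only [not_or, not_and] at hc
        have hpos := (G.isPosRoot_iff_not_neg (G.permW w s).2).2 (hc.2 hs.1)
        refine G.not_isNegRoot (G.isPosRoot_reflect hi hpos fun e => hc.1 ?_) ?_
        · exact (G.permW w).injective ((Fin.ext e : G.permW w s = G.simpleF ⟨i, hi⟩).trans hσr.symm)
        · have := hs.2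
          rwa [G.permW_cons, Equiv.Perm.mul_apply, Good.sPermN, dif_pos hi, G.sPerm_apply] at this
      · refine le_trans (Finset.card_insert_le _ _) ?_
        show G.nInv (G.permW w) + 1 ≤ G.nInv (G.permW (i :: w))
        omega
    have hnot : ¬ D.IsNegRoot (G.permW w r) := by
      rw [hσr]; exact G.not_isNegRoot (G.isPosRoot_simple hi)
    have e : ∀ σ : Equiv.Perm (Fin D.nroots),
        (Finset.univ.filter fun s : Fin D.nroots => D.IsPosRoot s ∧ D.IsNegRoot (σ s) ∧ par G (bitv D ε) s = 0) =
          (Finset.univ.filter fun s : Fin D.nroots => D.IsPosRoot s ∧ D.IsNegRoot (σ s)).filter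
            fun s : Fin D.nroots => par G (bitv D ε) s = 0 := fun σ => by
      ext s; simp [and_assoc]
    rw [e, e, hset, Finset.filter_insert]
    split
    · rw [Finset.card_insert_of_notMem (by simp [hnot])]
    · simp

/-- A form is determined by its values on the roots. -/
theorem mask_unique {a b : ℕ} (ha : a < 2 ^ D.rank) (hb : b < 2 ^ D.rank)
    (h : ∀ r : Fin D.nroots, par G (bitv D a) r = par G (bitv D b) r) : a = b := by
  by_contra hne
  have hne' : a ^^^ b ≠ 0 := fun e => hne (Nat.xor_eq_zero_iff.1 e)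
  have hlt := Nat.xor_lt_two_pow ha hb
  obtain ⟨i, hi, hi'⟩ := hT.nondeg _ hlt hne'
  have hx := (parTab_iff G hT hlt ⟨i, hi⟩).1 hi'
  have hv : bitv D (a ^^^ b) = fun k => bitv D a k + bitv D b k := funext fun k => by
    simp only [bitv, Nat.testBit_xor]
    cases a.testBit k <;> cases b.testBit k <;> simp <;> decide
  have h' := h (G.simpleF ⟨i, hi⟩)
  rw [hv] at hx
  simp only [par, add_mul, Finset.sum_add_distrib] at hx h'
  rw [show ((G.simpleF ⟨i, hi⟩).val) = D.simple i from rfl] at h'
  rw [h', ← two_mul, show (2 : ZMod 2) = 0 by decide, zero_mul] at hx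
  exact zero_ne_one hx

theorem maps_unique {ε a b : ℕ} {σ : Equiv.Perm (Fin D.nroots)} (ha : a < 2 ^ D.rank) (hb : b < 2 ^ D.rank)
    (h : Maps G ε σ a) (h' : Maps G ε σ b) : a = b := by
  refine mask_unique G hT ha hb fun r => ?_
  have := (h (σ⁻¹ r)).trans (h' (σ⁻¹ r)).symm
  simpa using this

end Cfsg.Agent.H90.Invol
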