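import Cfsg.Agent.H90.Invol.Descent
import Cfsg.Agent.H90.Invol.MaskSem

/-!
# Torus involutions and their centralisers

The torus element of a mask, the action of `N` on such elements, and the order of their centralisers from the
Bruhat normal form.
-/

set_option autoImplicit false

namespace Cfsg.Agent.H90.Invol

open Cfsg.Lie Cfsg.Agent.H46
open scoped Matrix MatrixGroups

variable {D : ChevalleyDatum} (G : Good D) {F : Type*} [Field F]

/-- The sign of an element of `ZMod 2`. -/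
def sgn (x : ZMod 2) : Fˣ := if x = 0 then 1 else -1

theorem sgn_add (x y : ZMod 2) : (sgn (x + y) : Fˣ) = sgn x * sgn y := by
  have h : ∀ x : ZMod 2, x = 0 ∨ x = 1 := by decide
  rcases h x with rfl | rfl <;> rcases h y with rfl | rfl <;> simp [sgn, show (1 : ZMod 2) + 1 = 0 by decide]

theorem neg_one_zpow_eq_sgn (n : ℤ) : (-1 : Fˣ) ^ n = sgn (n : ZMod 2) := by
  rcases Int.even_or_odd' n with ⟨k, rfl | rfl⟩
  · rw [zpow_mul]; simp [sgn, show (2 : ZMod 2) = 0 by decide]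
  · rw [zpow_add, zpow_mul]; simp [sgn, show (2 : ZMod 2) = 0 by decide]

theorem coe_sgn_eq_one_iff (hF2 : (2 : F) ≠ 0) (x : ZMod 2) : ((sgn x : Fˣ) : F) = 1 ↔ x = 0 := by
  unfold sgn
  split
  · simpa
  · next h =>
    simp only [h, iff_false, Units.val_neg, Units.val_one]
    intro e
    exact hF2 (by linear_combination -e)

/-- The torus parameters of a mask. -/
def zT (D : ChevalleyDatum) (F : Type*) [Field F] (ε : ℕ) : Fin D.rank → Fˣ :=
  fun k => if ε.testBit k then -1 else 1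

include G

theorem torusVal_zT (ε r : ℕ) : G.torusVal (zT D F ε) r = sgn (par G (bitv D ε) r) := by
  simp only [Good.torusVal, par]
  generalize (Finset.univ : Finset (Fin D.rank)) = S
  induction S using Finset.induction_on with
  | empty => simp [sgn]
  | insert a S ha ih =>
    rw [Finset.prod_insert ha, Finset.sum_insert ha, sgn_add, ih]
    congr 1
    cases h : ε.testBit a
    · simp [zT, bitv, h, sgn]
    · simp [zT, bitv, h, neg_one_zpow_eq_sgn]

theorem torusVal_zT_eq_one_iff (hF2 : (2 : F) ≠ 0) (ε r : ℕ) :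
    (G.torusVal (zT D F ε) r : F) = 1 ↔ par G (bitv D ε) r = 0 := by
  rw [torusVal_zT G, coe_sgn_eq_one_iff hF2]

theorem torus_ext {z w : Fin D.rank → Fˣ} (h : ∀ s < D.nroots, G.torusVal z s = G.torusVal w s) :
    G.torus z = G.torus w := by
  apply Units.ext
  rw [G.coe_torus, G.coe_torus]
  exact rdiag_congr fun s hs => by rw [h s hs]

/-- Conjugation of a torus element by an element of `N`. -/
theorem conj_torus_eq {n : GL D.Idx F} (hn : n ∈ D.monomialSubgroup F) {z w : Fin D.rank → Fˣ}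
    (h : ∀ r : Fin D.nroots, G.torusVal w (G.perm n r) = G.torusVal z r) :
    n * G.torus z * n⁻¹ = G.torus w := by
  obtain ⟨y, hy⟩ := G.mem_diagonal.1 (G.diagonal_normalized hn (G.mem_diagonal.2 ⟨z, rfl⟩))
  rw [hy]
  refine torus_ext G fun s hs => ?_
  set r := (G.perm n)⁻¹ ⟨s, hs⟩
  have hr : G.perm n r = ⟨s, hs⟩ := Equiv.apply_symm_apply _ _
  obtain ⟨c, hc⟩ := G.conj_xg_eq hn r
  have e : G.torus y * G.xg s ((c : F) * 1) * (G.torus y)⁻¹ = G.xg s ((c : F) * (G.torusVal z r : F)) := by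
    have h1 := hc 1
    have h2 := hc (G.torusVal z r : F)
    rw [hr] at h1 h2
    rw [← h1, ← h2, ← hy,
      show n * G.torus z * n⁻¹ * (n * G.xg r 1 * n⁻¹) * (n * G.torus z * n⁻¹)⁻¹ =
        n * (G.torus z * G.xg r 1 * (G.torus z)⁻¹) * n⁻¹ by group, G.torus_conj_xg z r.2, mul_one]
  rw [G.torus_conj_xg y hs, mul_one] at e
  have e2 := G.xg_injective hs e
  rw [mul_comm (c : F)] at e2
  have e3 := mul_right_cancel₀ c.ne_zero e2
  rw [show s = (G.perm n r).val by rw [hr], h r]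
  rw [hr]
  exact Units.ext e3

/-- The centraliser of `torus (zT ε)` in a subgroup `posSub S`. -/
theorem mem_posSub_zero (hF2 : (2 : F) ≠ 0) {S : Set ℕ} (hS : G.PosClosed S) (ε : ℕ) {g : GL D.Idx F}
    (hg : g ∈ G.posSub S) (hc : G.torus (zT D F ε) * g * (G.torus (zT D F ε))⁻¹ = g) :
    g ∈ G.posSub (S ∩ {r | par G (bitv D ε) r = 0}) := by
  obtain ⟨t, ⟨ht, rfl⟩, -⟩ := G.posSub_normal_form hS hg
  set z := zT D F ε
  have e : G.torus z * G.ordProd (D.nroots / 2) t * (G.torus z)⁻¹ =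
      G.ordProd (D.nroots / 2) fun r => (G.torusVal z r : F) * t r := by
    rw [show G.torus z * G.ordProd (D.nroots / 2) t * (G.torus z)⁻¹ =
      MulAut.conj (G.torus z) (G.ordProd (D.nroots / 2) t) from rfl, Good.ordProd, map_list_prod, List.map_map,
      Good.ordProd]
    congr 1
    refine List.map_congr_left fun r hr => ?_
    rw [List.mem_range'_1] at hr
    exact G.torus_conj_xg z (by omega) _
  rw [e] at hc
  refine G.ordProd_half_mem fun r hr hmem => ?_
  by_cases hrS : r ∈ S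
  · by_contra hne
    have h := G.ordProd_injective _ le_rfl _ _ hc r (G.isPosRoot_iff.1 hr).1 hr.1
    exact hmem ⟨hrS, (torusVal_zT_eq_one_iff G hF2 ε r).1 (mul_eq_right₀ hne |>.1 h)⟩
  · exact ht r (Or.inl hrS)

theorem commute_of_mem_zero (hF2 : (2 : F) ≠ 0) (ε : ℕ) {S : Set ℕ} {g : GL D.Idx F}
    (hg : g ∈ G.posSub (S ∩ {r | par G (bitv D ε) r = 0})) :
    G.torus (zT D F ε) * g = g * G.torus (zT D F ε) := by
  suffices h : g ∈ Subgroup.centralizer {G.torus (F := F) (zT D F ε)} from Subgroup.mem_centralizer_singleton_iff.1 h |>.symm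
  refine (Subgroup.closure_le _).2 ?_ hg
  rintro x ⟨r, t, ⟨hr, -, hr0⟩, rfl⟩
  rw [SetLike.mem_coe, Subgroup.mem_centralizer_singleton_iff, G.torus_mul_xg _ hr.1,
    (torusVal_zT_eq_one_iff G hF2 ε r).2 hr0, one_mul]

theorem posClosed_inter {S T : Set ℕ} (hS : G.PosClosed S) (hT : G.PosClosed T) : G.PosClosed (S ∩ T) :=
  fun r s hr hs hr' hs' hne c hc =>
    ⟨hS r s hr hs hr'.1 hs'.1 hne c hc, hT r s hr hs hr'.2 hs'.2 hne c hc⟩

theorem posClosed_zero (ε : ℕ) : G.PosClosed {r | par G (bitv D ε) r = 0} := by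
  intro r s hr hs hr' hs' _ c hc
  simp only [Set.mem_ofPred_eq] at hr' hs' ⊢
  rw [par_add G _ _ _ (G.commTerms_spec hr.1 hs.1 hc).2.2.2, hr', hs', mul_zero, mul_zero, add_zero]

open Classical in
/-- The number of positive roots killed by the form of `ε`. -/
noncomputable def nZero (ε : ℕ) : ℕ :=
  ((Finset.range D.nroots).filter fun r => D.IsPosRoot r ∧ par G (bitv D ε) r = 0).card

open Classical in
theorem card_posSub_zero [Fintype F] (ε : ℕ) :
    Nat.card (G.posSub (F := F) {r | par G (bitv D ε) r = 0}) = Fintype.card F ^ nZero G ε := by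
  rw [G.card_posSub (posClosed_zero G ε), Nat.card_eq_fintype_card, nZero]
  congr 2

theorem card_posSub_inv_zero [Fintype F] (ε : ℕ) {n : GL D.Idx F} (hn : n ∈ D.monomialSubgroup F) :
    Nat.card (G.posSub (F := F) (G.invSet n ∩ {r | par G (bitv D ε) r = 0})) =
      Fintype.card F ^ nInvS G (bitv D ε) (G.perm n) := by
  classical
  rw [G.card_posSub (posClosed_inter G (G.posClosed_invSet hn) (posClosed_zero G ε)), Nat.card_eq_fintype_card]
  congr 1
  rw [nInvS]
  symm
  refine Finset.card_bij (fun r _ => r.val) (fun r hr => ?_) (fun a _ b _ h => Fin.ext h) (fun r hr => ?_)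
  · simp only [Finset.mem_filter, Finset.mem_range, Finset.mem_univ, true_and] at hr ⊢
    exact ⟨r.2, hr.1, ⟨r.2, hr.1, hr.2.1⟩, hr.2.2⟩
  · simp only [Finset.mem_filter, Finset.mem_range, Finset.mem_univ, true_and] at hr ⊢
    obtain ⟨-, h2, ⟨h3, -, h4⟩, h5⟩ := hr
    exact ⟨⟨r, h3⟩, ⟨h2, h4, h5⟩, rfl⟩

open Classical in
/-- The order of the centraliser of a torus involution. -/
theorem card_centralizer [Fintype F] (hF2 : (2 : F) ≠ 0) (ε : ℕ) :
    Nat.card {g : GL D.Idx F // g ∈ D.group F ∧ g * G.torus (zT D F ε) = G.torus (zT D F ε) * g} =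
      Fintype.card F ^ nZero G ε * Nat.card (D.diagonalSubgroup F) *
        ∑ σ ∈ (G.finW D.rank).filter fun σ => Maps G ε σ ε, Fintype.card F ^ nInvS G (bitv D ε) σ := by
  classical
  set s : GL D.Idx F := G.torus (zT D F ε) with hs
  have hsH : s ∈ D.diagonalSubgroup F := G.mem_diagonal.2 ⟨_, rfl⟩
  set Φ : Set ℕ := {r | par G (bitv D ε) r = 0}
  set St := (G.finW D.rank).filter fun σ => Maps G ε σ ε with hSt
  have hrep : ∀ σ : ↥(G.finW D.rank), ∃ n ∈ D.monomialSubgroup F, G.perm n = σ.1 := fun σ => G.exists_rep σ.2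
  choose rep hrepN hrepP using hrep
  have hfix : ∀ n ∈ D.monomialSubgroup F, (Maps G ε (G.perm n) ε ↔ n * s * n⁻¹ = s) := by
    intro n hn
    constructor
    · intro h
      exact conj_torus_eq G hn fun r => by rw [torusVal_zT G, torusVal_zT G, h r]
    · intro h r
      obtain ⟨c, hc⟩ := G.conj_xg_eq hn r
      have h1 := hc (G.torusVal (zT D F ε) r : F)
      rw [← mul_one (G.torusVal (zT D F ε) r : F), ← G.torus_conj_xg _ r.2,
        show n * (s * G.xg r 1 * s⁻¹) * n⁻¹ = n * s * n⁻¹ * (n * G.xg r 1 * n⁻¹) * (n * s * n⁻¹)⁻¹ by group,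
        h, hc, hs, G.torus_conj_xg _ (G.perm n r).2, mul_one, mul_one] at h1
      have h2 := G.xg_injective (G.perm n r).2 h1
      rw [mul_comm (c : F)] at h2
      have h3 := mul_right_cancel₀ c.ne_zero h2
      have e : (G.torusVal (zT D F ε) (G.perm n r) : F) = 1 ↔ (G.torusVal (zT D F ε) r : F) = 1 := by rw [h3]
      rw [torusVal_zT_eq_one_iff G hF2, torusVal_zT_eq_one_iff G hF2] at e
      revert e
      generalize par G (bitv D ε) (G.perm n r) = x
      generalize par G (bitv D ε) (r : ℕ) = y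
      revert x y
      decide
  let σW : ↥St → ↥(G.finW D.rank) := fun σ => ⟨σ.1, (Finset.mem_filter.1 σ.2).1⟩
  have hrepC : ∀ σ : ↥St, rep (σW σ) * s = s * rep (σW σ) := by
    intro σ
    have := (hfix _ (hrepN (σW σ))).1 (by rw [hrepP]; exact (Finset.mem_filter.1 σ.2).2)
    exact mul_inv_eq_iff_eq_mul.1 this
  let φ : (Σ σ : ↥St, (↥(G.posSub (F := F) Φ) × ↥(D.diagonalSubgroup F)) ×
      ↥(G.posSub (F := F) (G.invSet (rep (σW σ)) ∩ Φ))) →
      {g : GL D.Idx F // g ∈ D.group F ∧ g * s = s * g} := fun p =>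
    ⟨p.2.1.1.1 * p.2.1.2.1 * rep (σW p.1) * p.2.2.1,
      mul_mem (mul_mem (mul_mem (G.posUnipotent_le_group (G.posSub_le_posUnipotent _ p.2.1.1.2))
        (G.diagonal_le_group p.2.1.2.2)) (G.monomial_le_group (hrepN _)))
        (G.posUnipotent_le_group (G.posSub_le_posUnipotent _ p.2.2.2)), by
      have hu : s * p.2.1.1.1 = p.2.1.1.1 * s := commute_of_mem_zero G hF2 ε (S := Set.univ)
        (G.posSub_mono (T := Set.univ ∩ Φ) (fun _ _ h => ⟨trivial, h⟩) p.2.1.1.2)
      have hx : s * p.2.2.1 = p.2.2.1 * s := commute_of_mem_zero G hF2 ε p.2.2.2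
      have hh : p.2.1.2.1 * s = s * p.2.1.2.1 := G.diagonal_comm p.2.1.2.2 hsH
      have hn := hrepC p.1
      calc p.2.1.1.1 * p.2.1.2.1 * rep (σW p.1) * p.2.2.1 * s
          = p.2.1.1.1 * p.2.1.2.1 * (rep (σW p.1) * s) * p.2.2.1 := by
            rw [mul_assoc _ p.2.2.1 s, ← hx]; group
        _ = p.2.1.1.1 * (p.2.1.2.1 * s) * rep (σW p.1) * p.2.2.1 := by rw [hn]; group
        _ = (p.2.1.1.1 * s) * p.2.1.2.1 * rep (σW p.1) * p.2.2.1 := by rw [hh]; group
        _ = _ := by rw [← hu]; group⟩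
  have hUH : ∀ {u u' h h' : GL D.Idx F}, u ∈ D.posUnipotent F → u' ∈ D.posUnipotent F →
      h ∈ D.diagonalSubgroup F → h' ∈ D.diagonalSubgroup F → u * h = u' * h' → u = u' ∧ h = h' := by
    intro u u' h h' hu hu' hh hh' e
    have e1 : u'⁻¹ * u = h' * h⁻¹ := by
      rw [eq_mul_inv_iff_mul_eq, mul_assoc, e, inv_mul_cancel_left]
    have hm : u'⁻¹ * u ∈ D.posUnipotent F ⊓ D.diagonalSubgroup F :=
      Subgroup.mem_inf.2 ⟨mul_mem (inv_mem hu') hu, by rw [e1]; exact mul_mem hh' (inv_mem hh)⟩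
    have h1 := (Subgroup.eq_bot_iff_forall _).1 (G.posUnipotent_inf_diagonal (F := F)) _ hm
    have h2 : u' = u := inv_mul_eq_one.1 h1
    rw [h2, mul_right_inj] at e
    exact ⟨h2.symm, e⟩
  have hBu : ∀ {u h : GL D.Idx F}, u ∈ D.posUnipotent F → h ∈ D.diagonalSubgroup F →
      u * h ∈ D.borelSubgroup F := fun hu hh =>
    mul_mem (Subgroup.mem_sup_left hu) (Subgroup.mem_sup_right hh)
  have hφ : Function.Bijective φ := by
    refine ⟨?_, ?_⟩
    · rintro ⟨σ, ⟨u, h⟩, x⟩ ⟨σ', ⟨u', h'⟩, x'⟩ e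
      have e' : u.1 * h.1 * rep (σW σ) * x.1 = u'.1 * h'.1 * rep (σW σ') * x'.1 := congrArg Subtype.val e
      obtain ⟨hd, hx, hb⟩ := G.bruhat_unique (hBu (G.posSub_le_posUnipotent _ u.2) h.2)
        (hBu (G.posSub_le_posUnipotent _ u'.2) h'.2) (hrepN _) (hrepN _)
        (G.posSub_mono (fun _ _ h => h.1) x.2) (G.posSub_mono (fun _ _ h => h.1) x'.2) e'
      have e2 := (G.perm_eq_one_iff (mul_mem (inv_mem (hrepN (σW σ))) (hrepN (σW σ')))).2 hd
      rw [G.perm_mul (inv_mem (hrepN _)) (hrepN _), G.perm_inv (hrepN _), inv_mul_eq_one, hrepP, hrepP] at e2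
      obtain rfl : σ = σ' := Subtype.ext e2
      obtain rfl : x = x' := Subtype.ext hx
      obtain ⟨hu, hh⟩ := hUH (G.posSub_le_posUnipotent _ u.2) (G.posSub_le_posUnipotent _ u'.2) h.2 h'.2 (hb rfl)
      obtain rfl : u = u' := Subtype.ext hu
      obtain rfl : h = h' := Subtype.ext hh
      rfl
    · rintro ⟨g, hg, hgs⟩
      obtain ⟨n₀, hn₀, hcell⟩ := G.bruhat hg
      set τ : ↥(G.finW D.rank) := ⟨G.perm n₀, G.perm_mem_finW hn₀⟩ with hτ
      have hd : (rep τ)⁻¹ * n₀ ∈ D.diagonalSubgroup F := by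
        rw [← G.perm_eq_one_iff (mul_mem (inv_mem (hrepN τ)) hn₀), G.perm_mul (inv_mem (hrepN τ)) hn₀,
          G.perm_inv (hrepN τ), hrepP, hτ, inv_mul_cancel]
      have hcell' : g ∈ G.bruhatCell (rep τ) := by
        obtain ⟨b, hb, b', hb', rfl⟩ := G.mem_bruhatCell.1 hcell
        exact G.mem_bruhatCell.2 ⟨b, hb, (rep τ)⁻¹ * n₀ * b', mul_mem (Subgroup.mem_sup_right hd) hb', by group⟩
      obtain ⟨b, hb, x, hx, rfl⟩ := G.bruhatCell_normal_form (hrepN τ) hcell'
      obtain ⟨u, hu, h, hh, rfl⟩ := G.mem_borel.1 hb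
      set n := rep τ
      have hconjU : s * u * s⁻¹ ∈ D.posUnipotent F := G.conj_posUnipotent (Subgroup.mem_sup_right hsH) hu
      have hconjS : s * x * s⁻¹ ∈ G.posSub (F := F) (G.invSet n) := by
        have : G.posSub (F := F) (G.invSet n) ≤ (G.posSub (F := F) (G.invSet n)).comap (MulAut.conj s).toMonoidHom := by
          refine (Subgroup.closure_le _).2 ?_
          rintro y ⟨r, t, ⟨hr, hr'⟩, rfl⟩
          simp only [SetLike.mem_coe, Subgroup.mem_comap, MulEquiv.coe_toMonoidHom, MulAut.conj_apply, hs]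
          rw [G.torus_conj_xg _ hr.1]
          exact G.xg_mem_posSub hr hr' _
        simpa using this hx
      set k := s * n * s⁻¹ * n⁻¹ with hk
      have hkH : k ∈ D.diagonalSubgroup F := by
        rw [hk, show s * n * s⁻¹ * n⁻¹ = s * (n * s⁻¹ * n⁻¹) by group]
        exact mul_mem hsH (G.diagonal_normalized (hrepN τ) (inv_mem hsH))
      have he : u * h * n * x = (s * u * s⁻¹) * (h * k) * n * (s * x * s⁻¹) := by
        calc u * h * n * x = u * h * n * x * s * s⁻¹ := by group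
          _ = s * (u * h * n * x) * s⁻¹ := by rw [hgs]
          _ = s * u * s⁻¹ * (s * h) * n * s⁻¹ * (s * x * s⁻¹) := by group
          _ = _ := by rw [← G.diagonal_comm hh hsH, hk]; group
      obtain ⟨-, hxx, hbb⟩ := G.bruhat_unique (hBu hu hh) (hBu hconjU (mul_mem hh hkH)) (hrepN τ) (hrepN τ)
        hx hconjS he
      obtain ⟨huu, hhh⟩ := hUH hu hconjU hh (mul_mem hh hkH) (hbb rfl)
      have hk1 : k = 1 := left_eq_mul.1 hhh
      have hns : n * s * n⁻¹ = s := by
        have : s * n = n * s := by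
          rw [hk, mul_inv_eq_one, mul_inv_eq_iff_eq_mul] at hk1
          exact hk1
        rw [← this, mul_inv_cancel_right]
      have hσ : τ.1 ∈ St := Finset.mem_filter.2 ⟨τ.2, by rw [← hrepP τ]; exact (hfix n (hrepN τ)).2 hns⟩
      have hτ' : σW ⟨τ.1, hσ⟩ = τ := rfl
      have huΦ : u ∈ G.posSub (F := F) Φ := by
        rw [G.posUnipotent_eq] at hu
        exact G.posSub_mono (fun _ _ h => h.2) (mem_posSub_zero G hF2 G.posClosed_univ ε hu huu.symm)
      exact ⟨⟨⟨τ.1, hσ⟩, ⟨⟨u, huΦ⟩, ⟨h, hh⟩⟩,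
        ⟨x, mem_posSub_zero G hF2 (G.posClosed_invSet (hrepN τ)) ε hx hxx.symm⟩⟩, Subtype.ext rfl⟩
  rw [← Nat.card_congr (Equiv.ofBijective φ hφ), Nat.card_sigma, Finset.mul_sum, ← Finset.sum_coe_sort St]
  refine Finset.sum_congr rfl fun σ _ => ?_
  rw [Nat.card_prod, Nat.card_prod, card_posSub_zero G, card_posSub_inv_zero G ε (hrepN _), hrepP]

end Cfsg.Agent.H90.Invol
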