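import Cfsg.Agent.H90.Invol.MaskSem

/-!
# The generating function of a stabiliser from the chain tables

`∑ φ (σ ε) q ^ N_ε(σ)` over `W_k` is read off the `k`-th table, `N_ε` counting the inverted roots killed by `ε`.
-/

set_option autoImplicit false

namespace Cfsg.Agent.H90.Invol

open Cfsg.Lie Cfsg.Agent.H46

variable {D : ChevalleyDatum} (G : Good D)

open Classical in
/-- The image mask. -/
noncomputable def tgt (ε : ℕ) (σ : Equiv.Perm (Fin D.nroots)) : ℕ :=
  if h : ∃ a, a < 2 ^ D.rank ∧ Maps G ε σ a then h.choose else 0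

/-- The value of a table on a function of the masks. -/
def evL (φ : ℕ → ℤ) (q : ℤ) (L : List (ℕ × List ℤ)) : ℤ := (L.map fun a => φ a.1 * evP a.2 q).sum

theorem evP_shiftP (q : ℤ) : ∀ (n : ℕ) (p : List ℤ), evP (shiftP n p) q = q ^ n * evP p q
  | 0, p => by simp [shiftP]
  | n + 1, p => by simp [shiftP, evP, evP_shiftP q n p, pow_succ']; ring

theorem evL_insA (φ : ℕ → ℤ) (q : ℤ) (a : ℕ × List ℤ) :
    ∀ L, evL φ q (insA a L) = φ a.1 * evP a.2 q + evL φ q L
  | [] => by simp [insA, evL]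
  | b :: L => by
    simp only [insA]
    cases h : Nat.beq a.1 b.1
    · simp only [cond_false]
      have := evL_insA φ q a L
      simp only [evL, List.map_cons, List.sum_cons] at this ⊢
      linarith
    · have := Nat.eq_of_beq_eq_true h
      simp only [cond_true, evL, List.map_cons, List.sum_cons, evP_addP, this]
      ring

theorem evL_foldr_insA (φ : ℕ → ℤ) (q : ℤ) : ∀ L, evL φ q (L.foldr insA []) = evL φ q L
  | [] => rfl
  | a :: L => by
    rw [List.foldr_cons, evL_insA, evL_foldr_insA φ q L]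
    simp [evL]

theorem evL_stepF (φ : ℕ → ℤ) (q : ℤ) (tbl : ℕ) (L : List (ℕ × List ℤ)) : ∀ data : List (ℕ × ℕ),
    evL φ q (stepF tbl data L) =
      evL (fun e => (data.map fun u => φ (scan tbl (wOf u) e).1 * q ^ (scan tbl (wOf u) e).2).sum) q L := by
  intro data
  rw [stepF, evL_foldr_insA]
  induction data with
  | nil => simp [evL]
  | cons u data ih =>
    simp only [evL, List.flatMap_cons, List.map_append, List.sum_append] at ih ⊢
    rw [ih]
    clear ih
    induction L with
    | nil => simp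
    | cons a L ih =>
      simp only [List.map_cons, List.sum_cons, evP_shiftP] at ih ⊢
      linear_combination ih

theorem evP_atMask (q : ℤ) (ε : ℕ) : ∀ L : List (ℕ × List ℤ),
    evP (atMask L ε) q = evL (fun e => if e = ε then 1 else 0) q L
  | [] => rfl
  | a :: L => by
    have ih := evP_atMask q ε L
    simp only [atMask, List.foldr_cons, evL, List.map_cons, List.sum_cons] at ih ⊢
    cases h : Nat.beq a.1 ε
    · rw [cond_false, ih, if_neg (Nat.ne_of_beq_eq_false h)]; ring
    · rw [cond_true, evP_addP, ih, if_pos (Nat.eq_of_beq_eq_true h)]; ring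

theorem eqA_eq : ∀ {L M : List (ℕ × List ℤ)}, eqA L M = true → L = M
  | [], [], _ => rfl
  | [], _ :: _, h => by simp [eqA] at h
  | _ :: _, [], h => by simp [eqA] at h
  | a :: L, b :: M, h => by
    simp only [eqA, Bool.and_eq_true, Nat.beq_eq] at h
    rw [eqA_eq h.2, Prod.ext h.1.1 (eqInts_eq h.1.2)]

include G

variable {tbl : ℕ} (hT : TblOk G tbl)
include hT

theorem tgt_eq {ε : ℕ} {σ : Equiv.Perm (Fin D.nroots)} {a : ℕ} (ha : a < 2 ^ D.rank) (h : Maps G ε σ a) :
    tgt G ε σ = a := by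
  have hex : ∃ a, a < 2 ^ D.rank ∧ Maps G ε σ a := ⟨a, ha, h⟩
  rw [tgt, dif_pos hex]
  exact maps_unique G hT hex.choose_spec.1 ha hex.choose_spec.2 h

theorem tgt_permW {ε : ℕ} (hε : ε < 2 ^ D.rank) {w : List ℕ} (hw : ∀ i ∈ w, i < D.rank) :
    tgt G ε (G.permW w) = (scan tbl w ε).1 :=
  tgt_eq G hT (scan_spec G hT hε w hw).1 (scan_spec G hT hε w hw).2

omit hT in
/-- Every element of `W_k` is given by a word of its length. -/
theorem exists_reduced {cert : List (List (ℕ × ℕ))} (h : chkWeyl D G.tab cert = true) :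
    ∀ k ≤ D.rank, ∀ σ ∈ G.Wk k, ∃ w : List ℕ, (∀ i ∈ w, i < k) ∧ σ = G.permW w ∧ G.nInv σ = w.length
  | 0, _, σ, hσ => by
    obtain ⟨w, hw, rfl⟩ := hσ
    rcases w with _ | ⟨i, w⟩
    · exact ⟨[], by simp, rfl, G.nInv_one⟩
    · exact absurd (hw i List.mem_cons_self) (Nat.not_lt_zero i)
  | k + 1, hk, σ, hσ => by
    have hk' : k < D.rank := hk
    obtain ⟨w, hw, rfl⟩ := hσ
    simp only [chkWeyl, List.all_eq_true, List.mem_range] at h
    obtain ⟨e, he, v, hv, hev⟩ := G.step_surjective hk' (h k hk') w hw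
    obtain ⟨v', hv', hvv, hlen⟩ := exists_reduced (by simpa [chkWeyl, List.all_eq_true] using h) k hk'.le
      (G.permW v) ⟨v, hv, rfl⟩
    obtain ⟨hu1, -, hpos, -⟩ := G.entry_spec hk' (h k hk') he
    refine ⟨wOf e ++ v', fun i hi => ?_, by rw [G.permW_append, ← hvv, hev], ?_⟩
    · rcases List.mem_append.1 hi with hi | hi
      · exact Nat.lt_succ_of_le (hu1 i hi)
      · exact Nat.lt_succ_of_lt (hv' i hi)
    · rw [hev, hvv, G.nInv_mul hv' hpos, G.length_eq_nInv hk' (h k hk') _ e he rfl, ← hvv, hlen,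
        List.length_append]

/-- Splitting off the last step of the chain. -/
theorem sum_step {cert : List (List (ℕ × ℕ))} (hW : chkWeyl D G.tab cert = true) {ε : ℕ}
    (hε : ε < 2 ^ D.rank) (q : ℤ) {k : ℕ} (hk' : k < D.rank) (φ : ℕ → ℤ) :
    ∑ σ ∈ G.finW (k + 1), φ (tgt G ε σ) * q ^ nInvS G (bitv D ε) σ =
      ∑ σ ∈ G.finW k, ((cert.getD k []).map fun u => φ (scan tbl (wOf u) (tgt G ε σ)).1 *
        q ^ (scan tbl (wOf u) (tgt G ε σ)).2).sum * q ^ nInvS G (bitv D ε) σ := by
  classical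
  have hWall := hW
  simp only [chkWeyl, List.all_eq_true, List.mem_range] at hWall
  have hstep := hWall k hk'
  have hnd : (cert.getD k []).Nodup := by
    simp only [chkStep, Bool.and_eq_true, decide_eq_true_eq] at hstep
    exact List.Nodup.of_map _ hstep.1.2
  simp only [← List.sum_toFinset _ hnd, Finset.sum_mul]
  rw [Finset.sum_comm, ← Finset.sum_product']
  symm
  refine Finset.sum_bij (fun p _ => G.permW (wOf p.1) * p.2) (fun p hp => ?_) (fun p hp p' hp' heq => ?_)
    (fun σ hσ => ?_) (fun p hp => ?_)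
  · simp only [Finset.mem_product, List.mem_toFinset, G.mem_finW] at hp ⊢
    obtain ⟨v, hv, hpv⟩ := hp.2
    refine ⟨wOf p.1 ++ v, fun i hi => ?_, by rw [G.permW_append, hpv]⟩
    rcases List.mem_append.1 hi with hi | hi
    · exact Nat.lt_succ_of_le ((G.entry_spec hk' hstep hp.1).1 i hi)
    · exact Nat.lt_succ_of_lt (hv i hi)
  · simp only [Finset.mem_product, List.mem_toFinset, G.mem_finW] at hp hp'
    obtain ⟨v, hv, hpv⟩ := hp.2
    obtain ⟨v', hv', hpv'⟩ := hp'.2
    obtain ⟨-, -, hpos, hcode⟩ := G.entry_spec hk' hstep hp.1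
    obtain ⟨-, -, hpos', hcode'⟩ := G.entry_spec hk' hstep hp'.1
    obtain ⟨e1, e2⟩ := G.eq_of_mul_eq hv hv' hpos hpos' (by rw [← hpv, ← hpv']; exact heq)
    have hsnd : p.1.2 = p'.1.2 := by rw [hcode, hcode', e1]
    have hnd2 := hstep
    simp only [chkStep, Bool.and_eq_true, decide_eq_true_eq] at hnd2
    exact Prod.ext (List.inj_on_of_nodup_map hnd2.1.2 hp.1 hp'.1 hsnd) (by rw [hpv, hpv', e2])
  · rw [G.mem_finW] at hσ
    obtain ⟨w, hw, rfl⟩ := hσ
    obtain ⟨e, he, v, hv, hev⟩ := G.step_surjective hk' hstep w hw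
    exact ⟨(e, G.permW v), by
      simp only [Finset.mem_product, List.mem_toFinset, G.mem_finW]; exact ⟨he, v, hv, rfl⟩, hev.symm⟩
  · simp only [Finset.mem_product, List.mem_toFinset, G.mem_finW] at hp
    obtain ⟨v, hv, hvv, hlen⟩ := exists_reduced G hW k hk'.le p.2 hp.2
    obtain ⟨hu1, -, hpos, -⟩ := G.entry_spec hk' hstep hp.1
    have hvr : ∀ i ∈ v, i < D.rank := fun i hi => lt_trans (hv i hi) hk'
    have hur : ∀ i ∈ wOf p.1, i < D.rank := fun i hi => lt_of_le_of_lt (hu1 i hi) hk'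
    have huv : ∀ i ∈ wOf p.1 ++ v, i < D.rank := fun i hi => by
      rcases List.mem_append.1 hi with hi | hi
      exacts [hur i hi, hvr i hi]
    have hred : G.nInv (G.permW (wOf p.1 ++ v)) = (wOf p.1 ++ v).length := by
      rw [G.permW_append, G.nInv_mul hv hpos, G.length_eq_nInv hk' hstep _ p.1 hp.1 rfl, ← hvv, hlen,
        List.length_append]
    rw [hvv, ← G.permW_append, tgt_permW G hT hε hvr, tgt_permW G hT hε huv,
      scan_count G hT hε v hvr (hvv ▸ hlen), scan_count G hT hε _ huv hred,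
      (scan_append G (wOf p.1) v ε).1, (scan_append G (wOf p.1) v ε).2, pow_add]
    ring

theorem sum_chain {cert : List (List (ℕ × ℕ))} (hW : chkWeyl D G.tab cert = true) {ε : ℕ}
    (hε : ε < 2 ^ D.rank) {tabs : List (List (ℕ × ℕ × ℕ))} {n : ℕ}
    (hC : chkChain tbl cert tabs n ε = true) (q : ℤ) :
    ∀ k, k ≤ n → k ≤ D.rank → ∀ φ : ℕ → ℤ,
      ∑ σ ∈ G.finW k, φ (tgt G ε σ) * q ^ nInvS G (bitv D ε) σ = evL φ q (decA (tabs.getD k [])) := by
  simp only [chkChain, Bool.and_eq_true, List.all_eq_true, List.mem_range] at hC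
  intro k
  induction k with
  | zero =>
    intro _ _ φ
    rw [G.finW_zero, Finset.sum_singleton, show (1 : Equiv.Perm (Fin D.nroots)) = G.permW [] from rfl,
      tgt_permW G hT hε (w := []) (by simp), scan_count G hT hε [] (by simp) G.nInv_one, eqA_eq hC.1]
    simp [scan, evL, evP]
  | succ k ih =>
    intro hn hk φ
    rw [sum_step G hT hW hε q hk φ, ← eqA_eq (hC.2 k (by omega)), evL_stepF, ← ih (by omega) (by omega)]

omit hT in
theorem tgt_lt (ε : ℕ) (σ : Equiv.Perm (Fin D.nroots)) : tgt G ε σ < 2 ^ D.rank := by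
  rw [tgt]
  split
  · next h => exact h.choose_spec.1
  · exact Nat.two_pow_pos _

/-- Scanning backwards inverts scanning. -/
theorem scan_reverse_iff {e ε : ℕ} (he : e < 2 ^ D.rank) (hε : ε < 2 ^ D.rank) {w : List ℕ}
    (hw : ∀ i ∈ w, i < D.rank) : (scan tbl w e).1 = ε ↔ e = (scan tbl w.reverse ε).1 := by
  have hwr : ∀ i ∈ w.reverse, i < D.rank := fun i hi => hw i (List.mem_reverse.1 hi)
  obtain ⟨-, hm⟩ := scan_spec G hT he w hw
  obtain ⟨hlt', hm'⟩ := scan_spec G hT hε w.reverse hwr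
  rw [G.permW_reverse] at hm'
  constructor
  · intro h
    rw [h] at hm
    refine maps_unique G hT he hlt' (ε := ε) (fun r => ?_) hm'
    have := hm ((G.permW w)⁻¹ r)
    rw [show G.permW w ((G.permW w)⁻¹ r) = r from Equiv.apply_symm_apply _ _] at this
    exact this.symm
  · intro h
    rw [← h] at hm'
    refine maps_unique G hT (scan_spec G hT he w hw).1 hε hm (fun r => ?_)
    have := hm' (G.permW w r)
    rw [show (G.permW w)⁻¹ (G.permW w r) = r from Equiv.symm_apply_apply _ _] at this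
    exact this.symm

/-- The meaning of the last step. -/
theorem evP_finalF {cert : List (List (ℕ × ℕ))} (hW : chkWeyl D G.tab cert = true) {ε : ℕ}
    (hε : ε < 2 ^ D.rank) {tabs : List (List (ℕ × ℕ × ℕ))} {n : ℕ} (hn : n < D.rank)
    (hC : chkChain tbl cert tabs n ε = true) (q : ℤ) :
    evP (finalF tbl (cert.getD n []) (decA (tabs.getD n [])) ε) q =
      ∑ σ ∈ G.finW (n + 1), (if tgt G ε σ = ε then (1 : ℤ) else 0) * q ^ nInvS G (bitv D ε) σ := by
  classical
  have hWall := hW
  simp only [chkWeyl, List.all_eq_true, List.mem_range] at hWall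
  have hstep := hWall n hn
  rw [sum_step G hT hW hε q hn fun a => if a = ε then (1 : ℤ) else 0]
  have e : ∀ data : List (ℕ × ℕ), (∀ u ∈ data, ∀ i ∈ wOf u, i < D.rank) →
      evP (finalF tbl data (decA (tabs.getD n [])) ε) q =
      ∑ σ ∈ G.finW n, (data.map fun u => (if (scan tbl (wOf u) (tgt G ε σ)).1 = ε then (1 : ℤ) else 0) *
        q ^ (scan tbl (wOf u) (tgt G ε σ)).2).sum * q ^ nInvS G (bitv D ε) σ := by
    intro data
    induction data with
    | nil => simp [finalF, evP]
    | cons u data ih =>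
      intro hd
      have ih' := ih fun v hv => hd v (List.mem_cons_of_mem _ hv)
      rw [finalF] at ih' ⊢
      rw [List.foldr_cons, evP_addP, evP_shiftP, evP_atMask, ih',
        ← sum_chain G hT hW hε hC q n le_rfl hn.le, Finset.mul_sum]
      simp only [List.map_cons, List.sum_cons, add_mul, Finset.sum_add_distrib]
      congr 1
      refine Finset.sum_congr rfl fun σ _ => ?_
      have hiff := scan_reverse_iff G hT (tgt_lt G ε σ) hε (hd u List.mem_cons_self)
      by_cases h : tgt G ε σ = (scan tbl (wOf u).reverse ε).1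
      · rw [if_pos h, if_pos (hiff.2 h), ← h]; ring
      · rw [if_neg h, if_neg fun x => h (hiff.1 x)]; ring
  exact e _ fun u hu i hi => lt_of_le_of_lt ((G.entry_spec hn hstep hu).1 i hi) hn

open Classical in
/-- The generating function of the stabiliser. -/
theorem sum_stab {cert : List (List (ℕ × ℕ))} (hW : chkWeyl D G.tab cert = true) {ε : ℕ}
    (hε : ε < 2 ^ D.rank) {tabs : List (List (ℕ × ℕ × ℕ))} {n : ℕ} (hn : n + 1 = D.rank)
    (hC : chkChain tbl cert tabs n ε = true) {degs : List ℕ} (hS : chkStab tbl cert tabs n ε degs = true)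
    (q : ℤ) :
    (q - 1) ^ D.rank *
      (∑ σ ∈ (G.finW D.rank).filter fun σ => Maps G ε σ ε, q ^ nInvS G (bitv D ε) σ) =
        (degs.map fun d => q ^ d - 1).prod := by
  have h := evP_zeroP _ q hS
  rw [evP_addP, evP_mulP, evP_map_mul, evP_degPoly, evP_degPoly, List.map_replicate, List.prod_replicate,
    pow_one, hn, evP_finalF G hT hW hε (by omega : n < D.rank) hC q, hn] at h
  have key : ∀ σ ∈ G.finW D.rank, (if tgt G ε σ = ε then (1 : ℤ) else 0) * q ^ nInvS G (bitv D ε) σ =
      if Maps G ε σ ε then q ^ nInvS G (bitv D ε) σ else 0 := by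
    intro σ hσ
    obtain ⟨w, hw, rfl⟩ := G.mem_finW.1 hσ
    obtain ⟨hlt, hmaps⟩ := scan_spec G hT hε w hw
    rw [tgt_permW G hT hε hw]
    by_cases he : (scan tbl w ε).1 = ε
    · rw [if_pos he, if_pos (by rwa [he] at hmaps), one_mul]
    · rw [if_neg he, if_neg (fun h => he (maps_unique G hT hlt hε hmaps h)), zero_mul]
  rw [Finset.sum_congr rfl key, ← Finset.sum_filter] at h
  push_cast at h
  linear_combination h

end Cfsg.Agent.H90.Invol
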