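import Cfsg.Agent.H90.Invol.Centralizer
import Cfsg.Agent.H90.Invol.Count

/-!
# The two classes of involutions

With certificates for the two orbits of torus involutions and the two stabilisers, a Chevalley group of odd
characteristic has exactly two classes of involutions, and the centraliser orders are given by the degree lists.
-/

set_option autoImplicit false

namespace Cfsg.Agent.H90.Invol

open Cfsg.Lie Cfsg.Agent.H46
open scoped Matrix MatrixGroups

variable {D : ChevalleyDatum} (G : Good D) {F : Type*} [Field F]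

theorem tblOk_of_chk {tbl : ℕ} (h : chkTbl G.tab D.rank tbl = true)
    (hn : ((List.range (2 ^ D.rank)).all fun ε => Nat.beq ε 0 ||
      (List.range D.rank).any fun i => parTab tbl ε i) = true) : TblOk G tbl := by
  simp only [chkTbl, List.all_eq_true, List.mem_range, beq_iff_eq] at h
  simp only [List.all_eq_true, List.mem_range, Bool.or_eq_true, List.any_eq_true, Nat.beq_eq] at hn
  refine ⟨h, fun ε hε hne => ?_⟩
  obtain ⟨i, hi, hi'⟩ := (hn ε hε).resolve_left hne
  exact ⟨i, hi, hi'⟩

include G

variable {tbl : ℕ} (hT : TblOk G tbl)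
include hT

/-- A fundamental reflection moves a torus involution to a conjugate. -/
theorem cj_stepM {ε : ℕ} (hε : ε < 2 ^ D.rank) (i : Fin D.rank) :
    CJ G (G.torus (F := F) (zT D F ε)) (G.torus (zT D F (stepM tbl i ε))) := by
  refine ⟨G.ng (D.simple i) 1, G.ng_mem_group _ _,
    conj_torus_eq G (G.ng_mem_monomial (G.simple_lt i.2)) fun r => ?_⟩
  obtain ⟨-, h2, -⟩ := scanOne_spec G hT hε i 0
  have e : (scanOne tbl i (ε, 0)).1 = stepM tbl i ε := by
    simp only [scanOne, stepM]; cases parTab tbl ε i <;> rfl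
  rw [e] at h2
  rw [G.perm_ng_simple, torusVal_zT G, torusVal_zT G, G.sPerm_apply, h2, par_reflect G _ i r.2]

/-- Masks in an orbit tree give conjugate involutions. -/
theorem cj_of_tree {root : ℕ} : ∀ L : List (ℕ × ℕ), chkTree tbl D.rank root L = true → ∀ a ∈ L, a.1 < 2 ^ D.rank →
    CJ G (G.torus (F := F) (zT D F a.1)) (G.torus (zT D F root))
  | [], _, a, ha, _ => absurd ha List.not_mem_nil
  | b :: L, h, a, ha, hlt => by
    simp only [chkTree, Bool.and_eq_true, Bool.or_eq_true, Nat.beq_eq, Nat.blt_eq, List.any_eq_true] at h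
    rcases List.mem_cons.1 ha with rfl | ha
    · rcases h.1 with h1 | ⟨hi, c, hc, hca⟩
      · rw [h1]; exact CJ.refl G _
      · obtain ⟨h2, -, -⟩ := scanOne_spec G hT hlt ⟨a.2, hi⟩ 0
        have e : (scanOne tbl a.2 (a.1, 0)).1 = stepM tbl a.2 a.1 := by
          simp only [scanOne, stepM]; cases parTab tbl a.1 a.2 <;> rfl
        rw [e, ← hca] at h2
        have h3 := cj_of_tree L h.2 c hc h2
        rw [hca] at h3
        exact (cj_stepM G hT hlt ⟨a.2, hi⟩).trans G h3
    · exact cj_of_tree L h.2 a ha hlt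

variable [Fintype F] (hF : Odd (Fintype.card F)) (hinj : Function.Injective (G.torus (F := F)))
  (hodd : chkOdd G.tab D.rank = true)

include hF hinj hodd

/-- Every involution is conjugate to one of the two representatives. -/
theorem exists_class {ε₁ ε₂ : ℕ} {L₁ L₂ : List (ℕ × ℕ)}
    (horb : chkOrbits tbl D.rank ε₁ ε₂ L₁ L₂ = true) {t : GL D.Idx F} (ht : t ∈ D.group F) (h2 : t * t = 1)
    (hne : t ≠ 1) : CJ G t (G.torus (zT D F ε₁)) ∨ CJ G t (G.torus (zT D F ε₂)) := by
  simp only [chkOdd, List.all_eq_true, List.mem_range, Bool.or_eq_true, Nat.beq_eq, decide_eq_true_eq] at hodd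
  obtain ⟨n, hn, hn2, hc⟩ := exists_monomial_conj G hF ht h2
  obtain ⟨z, hz, hc'⟩ := exists_torus_conj G hF hinj
    (fun i j hij => (hodd i i.2 j j.2).resolve_left fun e => hij (Fin.ext e)) _ n hn hn2 rfl
  have hz1 : ∀ k, z k = 1 ∨ z k = -1 := fun k => by
    have := congrFun hz k
    rcases mul_self_eq_one_iff.1 (show (z k : F) * z k = 1 by rw [← Units.val_mul]; exact congrArg Units.val this) with h | h
    · exact Or.inl (Units.ext h)
    · exact Or.inr (Units.ext (by simpa using h))
  classical
  set ε := Nat.ofBits fun k : Fin D.rank => decide (z k ≠ 1)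
  have hε : ε < 2 ^ D.rank := Nat.ofBits_lt_two_pow _
  have hzε : z = zT D F ε := funext fun k => by
    rw [zT, Nat.testBit_ofBits_lt _ _ k.2]
    rcases hz1 k with h | h
    · simp [h]
    · by_cases h1 : z k = 1
      · simp [h1]
      · simp [h]
  have hc2 := hc.trans G hc'
  rw [hzε] at hc2
  simp only [chkOrbits, Bool.and_eq_true, List.all_eq_true, List.mem_range, Bool.or_eq_true, List.any_eq_true,
    Nat.beq_eq] at horb
  rcases horb.2 ε hε with (h0 | ⟨a, ha, ha'⟩) | ⟨a, ha, ha'⟩
  · exfalso
    obtain ⟨g, -, hg⟩ := hc2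
    have e1 : G.torus (zT D F ε) = 1 := by
      rw [h0, show zT D F 0 = 1 from funext fun k => by simp [zT], map_one]
    rw [e1, conj_eq_one_iff] at hg
    exact hne hg
  · left; rw [← ha'] at hc2 hε; exact hc2.trans G (cj_of_tree G hT L₁ horb.1.1 a ha hε)
  · right; rw [← ha'] at hc2 hε; exact hc2.trans G (cj_of_tree G hT L₂ horb.1.2 a ha hε)

omit hinj hodd

/-- The order of a torus involution's centraliser inside the group. -/
theorem card_centralizer_group {cert : List (List (ℕ × ℕ))} (hW : chkWeyl D G.tab cert = true)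
    {C : SmithCert} (hC : SmithOk D G.tab C) (hC1 : ∀ i : Fin D.rank, C.s.getD i.val 0 = 1)
    {ε : ℕ} (hε : ε < 2 ^ D.rank) {tabs : List (List (ℕ × ℕ × ℕ))} {n : ℕ} (hn : n + 1 = D.rank)
    (hc : chkChain tbl cert tabs n ε = true) {degs : List ℕ} (hs : chkStab tbl cert tabs n ε degs = true)
    {N : ℕ} (hN : nZero G ε = N) (s : ↥(D.group F)) (hs' : (s : GL D.Idx F) = G.torus (zT D F ε)) :
    Nat.card (Subgroup.centralizer ({s} : Set ↥(D.group F))) =
      Fintype.card F ^ N * (degs.map fun d => Fintype.card F ^ d - 1).prod := by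
  have hF2 : (2 : F) ≠ 0 := Ring.two_ne_zero fun h => by
    have := FiniteField.even_card_iff_char_two.1 h
    obtain ⟨a, ha⟩ := hF
    omega
  have e : ↥(Subgroup.centralizer ({s} : Set ↥(D.group F))) ≃
      {g : GL D.Idx F // g ∈ D.group F ∧ g * G.torus (zT D F ε) = G.torus (zT D F ε) * g} :=
    { toFun := fun g => ⟨g.1.1, g.1.2, by
        have := Subgroup.mem_centralizer_singleton_iff.1 g.2
        rw [← hs']
        exact congrArg Subtype.val this⟩
      invFun := fun g => ⟨⟨g.1, g.2.1⟩, Subgroup.mem_centralizer_singleton_iff.2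
        (Subtype.ext (by simpa [hs'] using g.2.2))⟩
      left_inv := fun g => rfl
      right_inv := fun g => rfl }
  rw [Nat.card_congr e, card_centralizer G hF2 ε, hN, mul_assoc]
  congr 1
  have hH := G.card_diagonal_mul (F := F) C hC
  rw [Finset.prod_congr rfl fun i _ => by rw [hC1 i, Nat.gcd_one_right], Finset.prod_const_one, one_mul] at hH
  rw [hH]
  set q := Fintype.card F with hq
  have hq1 : 1 ≤ q := Fintype.card_pos
  have h := sum_stab G hT hW hε hn hc hs (q : ℤ)
  have e2 : (((degs.map fun d => q ^ d - 1).prod : ℕ) : ℤ) = (degs.map fun d => (q : ℤ) ^ d - 1).prod := by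
    clear hs h
    induction degs with
    | nil => simp
    | cons d L ih => simp [Nat.cast_sub (Nat.one_le_pow d q hq1), ih]
  rw [← e2, ← Nat.cast_pred (by omega : 0 < q)] at h
  classical
  exact_mod_cast h

omit hT

/-- Centraliser orders with different powers of `q` give different classes. -/
theorem card_ne (a b : ℕ) (hab : a < b) (L M : List ℕ) (hL : ∀ d ∈ L, 0 < d) :
    Fintype.card F ^ a * (L.map fun d => Fintype.card F ^ d - 1).prod ≠
      Fintype.card F ^ b * (M.map fun d => Fintype.card F ^ d - 1).prod := by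
  intro h
  set q := Fintype.card F
  have hq1 : 1 < q := Fintype.one_lt_card
  rw [show b = a + (b - a - 1 + 1) by omega, pow_add, mul_assoc] at h
  have h' := congrArg (Nat.cast : ℕ → ZMod q) (Nat.eq_of_mul_eq_mul_left (pow_pos (by omega) a) h)
  rw [pow_succ, Nat.cast_mul, Nat.cast_mul, ZMod.natCast_self, mul_zero, zero_mul] at h'
  have hprod : IsUnit (((L.map fun d => q ^ d - 1).prod : ℕ) : ZMod q) := by
    clear h h'
    induction L with
    | nil => simp
    | cons d L ih =>
      rw [List.map_cons, List.prod_cons, Nat.cast_mul]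
      refine IsUnit.mul ?_ (ih fun x hx => hL x (List.mem_cons_of_mem _ hx))
      rw [Nat.cast_sub (Nat.one_le_pow _ _ (by omega)), Nat.cast_pow, ZMod.natCast_self,
        zero_pow (hL d List.mem_cons_self).ne', Nat.cast_one, zero_sub]
      exact isUnit_one.neg
  have : Fact (1 < q) := ⟨hq1⟩
  rw [h'] at hprod
  exact not_isUnit_zero hprod

/-- The number of positive roots killed by a mask, from the tables. -/
def cntZero (D : ChevalleyDatum) (T : Tab) (ε : ℕ) : ℕ :=
  ((List.range D.nroots).filter fun r => decide (D.nroots / 2 ≤ r) &&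
    decide (sumR (fun k => cond (ε.testBit k) (T.cart D.rank k r) 0) D.rank % 2 = 0)).length

omit [Fintype F] hF

/-- The table count agrees with `nZero`. -/
theorem nZero_eq (ε : ℕ) : nZero G ε = cntZero D G.tab ε := by
  classical
  rw [nZero, cntZero, ← List.toFinset_card_of_nodup (List.nodup_range.filter _)]
  congr 1
  ext r
  simp only [Finset.mem_filter, Finset.mem_range, List.mem_toFinset, List.mem_filter, List.mem_range,
    Bool.and_eq_true, decide_eq_true_eq, G.isPosRoot_iff]
  refine and_congr_right fun hr => and_congr (and_iff_left hr) ?_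
  have e : ((sumR (fun k => cond (ε.testBit k) (G.tab.cart D.rank k r) 0) D.rank : ℤ) : ZMod 2) =
      par G (bitv D ε) r := by
    rw [sumR_eq_sum_fin, Int.cast_sum, par]
    refine Finset.sum_congr rfl fun k _ => ?_
    rw [← G.cart_eq_cartForm]
    cases h : ε.testBit k <;> simp [bitv, h]
  rw [← e, ZMod.intCast_zmod_eq_zero_iff_dvd]
  exact Int.dvd_iff_emod_eq_zero

/-- The torus parametrisation is injective when the Smith diagonal is trivial. -/
theorem torus_injective_of_smith [Fintype F] {C : SmithCert} (hC : SmithOk D G.tab C)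
    (hC1 : ∀ i : Fin D.rank, C.s.getD i.val 0 = 1) : Function.Injective (G.torus (F := F)) := by
  classical
  rw [← MonoidHom.ker_eq_bot_iff]
  refine Subgroup.eq_bot_of_card_eq _ ?_
  rw [G.card_ker_torus C hC]
  exact Finset.prod_eq_one fun i _ => by rw [hC1 i, Nat.gcd_one_right]

/-- A non-zero mask gives an involution. -/
theorem orderOf_mask [Fintype F] (hF2 : (2 : F) ≠ 0) (hinj : Function.Injective (G.torus (F := F))) {ε : ℕ}
    (hε : ε < 2 ^ D.rank) (h0 : ε ≠ 0) (s : ↥(D.group F)) (hs : (s : GL D.Idx F) = G.torus (zT D F ε)) :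
    orderOf s = 2 := by
  rw [← orderOf_injective (D.group F).subtype Subtype.val_injective]
  show orderOf (s : GL D.Idx F) = 2
  rw [hs, orderOf_eq_prime_iff]
  refine ⟨?_, fun h => h0 (Nat.eq_of_testBit_eq fun k => ?_)⟩
  · rw [← map_pow, show zT D F ε ^ 2 = 1 from funext fun k => by
      rw [Pi.pow_apply, zT]; split <;> simp, map_one]
  · rw [Nat.zero_testBit]
    by_cases hk : k < D.rank
    · cases hb : ε.testBit k
      · rfl
      · exfalso
        have h' := congrFun (hinj (h.trans (map_one _).symm)) ⟨k, hk⟩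
        simp only [zT, hb, if_true, Pi.one_apply] at h'
        have h'' : (-1 : F) = 1 := by simpa using congrArg Units.val h'
        exact hF2 (by linear_combination -h'')
    · exact Nat.testBit_lt_two_pow (lt_of_lt_of_le hε (Nat.pow_le_pow_right two_pos (not_lt.1 hk)))

end Cfsg.Agent.H90.Invol
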