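import Cfsg.Agent.H90.Invol.DataE8

/-!
# Stabiliser certificates, type E8, mask 1 (generated file)
-/

set_option autoImplicit false
set_option maxRecDepth 100000

namespace Cfsg.Agent.H90.Invol

open Cfsg.Lie Cfsg.Agent.H46

theorem chkChain_E8_1 : chkChain tblE8 weylE8 chainE8_1 7 1 = true := by decide +kernel

theorem chkStab_E8_1 : chkStab tblE8 weylE8 chainE8_1 7 1
    [2, 2, 6, 8, 10, 12, 14, 18] = true := by decide +kernel

end Cfsg.Agent.H90.Invol
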