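import Cfsg.Agent.H90.Invol.DataE8

/-!
# Stabiliser certificates, type E8, mask 3 (generated file)
-/

set_option autoImplicit false
set_option maxRecDepth 100000

namespace Cfsg.Agent.H90.Invol

open Cfsg.Lie Cfsg.Agent.H46

theorem chkChain_E8_3 : chkChain tblE8 weylE8 chainE8_3 7 3 = true := by decide +kernel

theorem chkStab_E8_3 : chkStab tblE8 weylE8 chainE8_3 7 3
    [2, 4, 6, 8, 10, 12, 14, 8] = true := by decide +kernel

end Cfsg.Agent.H90.Invol
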