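import Cfsg.Agent.H90.Invol.Classes
import Cfsg.Agent.H90.Invol.DataE8A
import Cfsg.Agent.H90.Invol.DataE8B
import Cfsg.Agent.H46.TypeE8

/-!
# Involution classes of the Chevalley groups of type E8 in odd characteristic
-/

set_option autoImplicit false
set_option maxRecDepth 100000

namespace Cfsg.Agent.H90.Invol

open Cfsg.Lie Cfsg.Agent.H46
open scoped Matrix MatrixGroups

theorem tblOk_E8 : TblOk goodE8 tblE8 :=
  tblOk_of_chk goodE8 chkTbl_E8 (by decide +kernel)

theorem cntZero_E8_3 : cntZero chevE8 tabE8 3 = 56 := by decide +kernel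

theorem cntZero_E8_1 : cntZero chevE8 tabE8 1 = 64 := by decide +kernel

theorem classes_E8 {F : Type*} [Field F] [Fintype F] (hF : Odd (Fintype.card F)) :
    ∃ s t : ↥(chevE8.group F), orderOf s = 2 ∧ orderOf t = 2 ∧ ¬ IsConj s t ∧
      (∀ u : ↥(chevE8.group F), orderOf u = 2 → IsConj u s ∨ IsConj u t) ∧
      Nat.card (Subgroup.centralizer ({s} : Set ↥(chevE8.group F))) =
        Fintype.card F ^ 56 * (([2, 4, 6, 8, 10, 12, 14, 8] : List ℕ).map fun d => Fintype.card F ^ d - 1).prod ∧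
      Nat.card (Subgroup.centralizer ({t} : Set ↥(chevE8.group F))) =
        Fintype.card F ^ 64 * (([2, 2, 6, 8, 10, 12, 14, 18] : List ℕ).map fun d => Fintype.card F ^ d - 1).prod := by
  have hF2 : (2 : F) ≠ 0 := Ring.two_ne_zero fun h => by
    have := FiniteField.even_card_iff_char_two.1 h
    obtain ⟨k, hk⟩ := hF
    omega
  have hC1 : ∀ i : Fin chevE8.rank, smithE8.s.getD i.val 0 = 1 := by decide
  have hinj := torus_injective_of_smith goodE8 (F := F) smithOk_E8 hC1
  have hmem : ∀ ε, goodE8.torus (zT chevE8 F ε) ∈ chevE8.group F := fun ε =>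
    goodE8.diagonal_le_group (goodE8.mem_diagonal.2 ⟨_, rfl⟩)
  have hrk : chevE8.rank = 8 := rfl
  set s : ↥(chevE8.group F) := ⟨_, hmem 3⟩
  set t : ↥(chevE8.group F) := ⟨_, hmem 1⟩
  have hs : Nat.card (Subgroup.centralizer ({s} : Set ↥(chevE8.group F))) =
      Fintype.card F ^ 56 * (([2, 4, 6, 8, 10, 12, 14, 8] : List ℕ).map fun d => Fintype.card F ^ d - 1).prod :=
    card_centralizer_group goodE8 tblOk_E8 hF chkWeyl_E8 smithOk_E8 hC1 (by rw [hrk]; norm_num) (n := 7)
      hrk.symm chkChain_E8_3 chkStab_E8_3 ((nZero_eq goodE8 _).trans cntZero_E8_3) s rfl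
  have ht : Nat.card (Subgroup.centralizer ({t} : Set ↥(chevE8.group F))) =
      Fintype.card F ^ 64 * (([2, 2, 6, 8, 10, 12, 14, 18] : List ℕ).map fun d => Fintype.card F ^ d - 1).prod :=
    card_centralizer_group goodE8 tblOk_E8 hF chkWeyl_E8 smithOk_E8 hC1 (by rw [hrk]; norm_num) (n := 7)
      hrk.symm chkChain_E8_1 chkStab_E8_1 ((nZero_eq goodE8 _).trans cntZero_E8_1) t rfl
  refine ⟨s, t, orderOf_mask goodE8 hF2 hinj (ε := 3) (by rw [hrk]; norm_num) (by norm_num) s rfl,
    orderOf_mask goodE8 hF2 hinj (ε := 1) (by rw [hrk]; norm_num) (by norm_num) t rfl, ?_, ?_, hs, ht⟩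
  · intro h
    obtain ⟨g, hg⟩ := isConj_iff.1 h
    have hc : Nat.card (Subgroup.centralizer ({s} : Set ↥(chevE8.group F))) =
        Nat.card (Subgroup.centralizer ({t} : Set ↥(chevE8.group F))) := by
      rw [← hg]
      refine Nat.card_congr ((MulAut.conj g).toEquiv.subtypeEquiv fun x => ?_)
      simp only [MulEquiv.toEquiv_eq_coe, EquivLike.coe_coe, MulAut.conj_apply,
        Subgroup.mem_centralizer_singleton_iff]
      rw [show g * x * g⁻¹ * (g * s * g⁻¹) = g * (x * s) * g⁻¹ by group,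
        show g * s * g⁻¹ * (g * x * g⁻¹) = g * (s * x) * g⁻¹ by group, mul_left_inj, mul_right_inj]
    rw [hs, ht] at hc
    exact card_ne goodE8 hF 56 64 (by norm_num) _ _ (by decide) hc
  · intro u hu
    have h2 : (u : GL chevE8.Idx F) * u = 1 := by
      have := pow_orderOf_eq_one u
      rw [hu, sq] at this
      exact congrArg Subtype.val this
    have hne : (u : GL chevE8.Idx F) ≠ 1 := fun h => by
      rw [show u = 1 from Subtype.ext h, orderOf_one] at hu
      exact absurd hu (by norm_num)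
    have conj : ∀ w : ↥(chevE8.group F), CJ goodE8 (u : GL chevE8.Idx F) w → IsConj u w := fun w ⟨g, hg, hgw⟩ =>
      isConj_iff.2 ⟨⟨g, hg⟩, Subtype.ext hgw⟩
    rcases exists_class goodE8 tblOk_E8 hF hinj chkOdd_E8 chkOrbits_E8 u.2 h2 hne with h | h
    · exact Or.inr (conj t h)
    · exact Or.inl (conj s h)

end Cfsg.Agent.H90.Invol
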