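import Cfsg.Agent.H90.Invol.DataF4

/-!
# Stabiliser certificates, type F4, mask 1 (generated file)
-/

set_option autoImplicit false
set_option maxRecDepth 100000

namespace Cfsg.Agent.H90.Invol

open Cfsg.Lie Cfsg.Agent.H46

theorem chkChain_F4_1 : chkChain tblF4 weylF4 chainF4_1 3 1 = true := by decide +kernel

theorem chkStab_F4_1 : chkStab tblF4 weylF4 chainF4_1 3 1
    [2, 4, 6, 8] = true := by decide +kernel

end Cfsg.Agent.H90.Invol
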