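import Cfsg.Agent.H90.Invol.Classes
import Cfsg.Agent.H90.Invol.DataF4A
import Cfsg.Agent.H90.Invol.DataF4B
import Cfsg.Agent.H46.TypeF4

/-!
# Involution classes of the Chevalley groups of type F4 in odd characteristic
-/

set_option autoImplicit false
set_option maxRecDepth 100000

namespace Cfsg.Agent.H90.Invol

open Cfsg.Lie Cfsg.Agent.H46
open scoped Matrix MatrixGroups

theorem tblOk_F4 : TblOk goodF4 tblF4 :=
  tblOk_of_chk goodF4 chkTbl_F4 (by decide +kernel)

theorem cntZero_F4_1 : cntZero chevF4 tabF4 1 = 16 := by decide +kernel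

theorem cntZero_F4_4 : cntZero chevF4 tabF4 4 = 10 := by decide +kernel

theorem classes_F4 {F : Type*} [Field F] [Fintype F] (hF : Odd (Fintype.card F)) :
    ∃ s t : ↥(chevF4.group F), orderOf s = 2 ∧ orderOf t = 2 ∧ ¬ IsConj s t ∧
      (∀ u : ↥(chevF4.group F), orderOf u = 2 → IsConj u s ∨ IsConj u t) ∧
      Nat.card (Subgroup.centralizer ({s} : Set ↥(chevF4.group F))) =
        Fintype.card F ^ 16 * (([2, 4, 6, 8] : List ℕ).map fun d => Fintype.card F ^ d - 1).prod ∧
      Nat.card (Subgroup.centralizer ({t} : Set ↥(chevF4.group F))) =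
        Fintype.card F ^ 10 * (([2, 2, 4, 6] : List ℕ).map fun d => Fintype.card F ^ d - 1).prod := by
  have hF2 : (2 : F) ≠ 0 := Ring.two_ne_zero fun h => by
    have := FiniteField.even_card_iff_char_two.1 h
    obtain ⟨k, hk⟩ := hF
    omega
  have hC1 : ∀ i : Fin chevF4.rank, smithF4.s.getD i.val 0 = 1 := by decide
  have hinj := torus_injective_of_smith goodF4 (F := F) smithOk_F4 hC1
  have hmem : ∀ ε, goodF4.torus (zT chevF4 F ε) ∈ chevF4.group F := fun ε =>
    goodF4.diagonal_le_group (goodF4.mem_diagonal.2 ⟨_, rfl⟩)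
  have hrk : chevF4.rank = 4 := rfl
  set s : ↥(chevF4.group F) := ⟨_, hmem 1⟩
  set t : ↥(chevF4.group F) := ⟨_, hmem 4⟩
  have hs : Nat.card (Subgroup.centralizer ({s} : Set ↥(chevF4.group F))) =
      Fintype.card F ^ 16 * (([2, 4, 6, 8] : List ℕ).map fun d => Fintype.card F ^ d - 1).prod :=
    card_centralizer_group goodF4 tblOk_F4 hF chkWeyl_F4 smithOk_F4 hC1 (by rw [hrk]; norm_num) (n := 3)
      hrk.symm chkChain_F4_1 chkStab_F4_1 ((nZero_eq goodF4 _).trans cntZero_F4_1) s rfl
  have ht : Nat.card (Subgroup.centralizer ({t} : Set ↥(chevF4.group F))) =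
      Fintype.card F ^ 10 * (([2, 2, 4, 6] : List ℕ).map fun d => Fintype.card F ^ d - 1).prod :=
    card_centralizer_group goodF4 tblOk_F4 hF chkWeyl_F4 smithOk_F4 hC1 (by rw [hrk]; norm_num) (n := 3)
      hrk.symm chkChain_F4_4 chkStab_F4_4 ((nZero_eq goodF4 _).trans cntZero_F4_4) t rfl
  refine ⟨s, t, orderOf_mask goodF4 hF2 hinj (ε := 1) (by rw [hrk]; norm_num) (by norm_num) s rfl,
    orderOf_mask goodF4 hF2 hinj (ε := 4) (by rw [hrk]; norm_num) (by norm_num) t rfl, ?_, ?_, hs, ht⟩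
  · intro h
    obtain ⟨g, hg⟩ := isConj_iff.1 h
    have hc : Nat.card (Subgroup.centralizer ({s} : Set ↥(chevF4.group F))) =
        Nat.card (Subgroup.centralizer ({t} : Set ↥(chevF4.group F))) := by
      rw [← hg]
      refine Nat.card_congr ((MulAut.conj g).toEquiv.subtypeEquiv fun x => ?_)
      simp only [MulEquiv.toEquiv_eq_coe, EquivLike.coe_coe, MulAut.conj_apply,
        Subgroup.mem_centralizer_singleton_iff]
      rw [show g * x * g⁻¹ * (g * s * g⁻¹) = g * (x * s) * g⁻¹ by group,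
        show g * s * g⁻¹ * (g * x * g⁻¹) = g * (s * x) * g⁻¹ by group, mul_left_inj, mul_right_inj]
    rw [hs, ht] at hc
    exact card_ne goodF4 hF 10 16 (by norm_num) _ _ (by decide) hc.symm
  · intro u hu
    have h2 : (u : GL chevF4.Idx F) * u = 1 := by
      have := pow_orderOf_eq_one u
      rw [hu, sq] at this
      exact congrArg Subtype.val this
    have hne : (u : GL chevF4.Idx F) ≠ 1 := fun h => by
      rw [show u = 1 from Subtype.ext h, orderOf_one] at hu
      exact absurd hu (by norm_num)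
    have conj : ∀ w : ↥(chevF4.group F), CJ goodF4 (u : GL chevF4.Idx F) w → IsConj u w := fun w ⟨g, hg, hgw⟩ =>
      isConj_iff.2 ⟨⟨g, hg⟩, Subtype.ext hgw⟩
    rcases exists_class goodF4 tblOk_F4 hF hinj chkOdd_F4 chkOrbits_F4 u.2 h2 hne with h | h
    · exact Or.inl (conj s h)
    · exact Or.inr (conj t h)

end Cfsg.Agent.H90.Invol
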