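import Cfsg.Agent.H90.Invol.Mask
import Cfsg.Agent.H46.WeylF4
import Cfsg.Agent.H46.TypeF4

/-!
# Mask certificates, type F4 (generated file)
-/

set_option autoImplicit false
set_option maxRecDepth 100000

namespace Cfsg.Agent.H90.Invol

open Cfsg.Lie Cfsg.Agent.H46

/-- Parity table, type F4. -/
def tblF4 : ℕ := 0xd0f0c0e07050604090b080a03010200

/-- Orbit tree of mask 1. -/
def orbitF4_1 : List (ℕ × ℕ) :=
 [(2, 0),
  (3, 1),
  (1, 0)]

/-- Chain table 0 of mask 1. -/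
def chainF4_1_0 : List (ℕ × ℕ × ℕ) :=
 [(1, 1, 0x1)]

/-- Chain table 1 of mask 1. -/
def chainF4_1_1 : List (ℕ × ℕ × ℕ) :=
 [(1, 2, 0x100000001)]

/-- Chain table 2 of mask 1. -/
def chainF4_1_2 : List (ℕ × ℕ × ℕ) :=
 [(2, 2, 0x100000001),
  (3, 2, 0x100000001),
  (1, 2, 0x100000001)]

/-- Chain table 3 of mask 1. -/
def chainF4_1_3 : List (ℕ × ℕ × ℕ) :=
 [(2, 6, 0x10000000300000004000000040000000300000001),
  (3, 6, 0x10000000300000004000000040000000300000001),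
  (1, 6, 0x10000000300000004000000040000000300000001)]

/-- The chain tables of mask 1. -/
def chainF4_1 : List (List (ℕ × ℕ × ℕ)) :=
 [chainF4_1_0, chainF4_1_1, chainF4_1_2, chainF4_1_3]

/-- Orbit tree of mask 4. -/
def orbitF4_4 : List (ℕ × ℕ) :=
 [(5, 3),
  (13, 2),
  (9, 1),
  (11, 2),
  (10, 2),
  (15, 3),
  (8, 2),
  (14, 3),
  (7, 0),
  (12, 3),
  (6, 1),
  (4, 0)]

/-- Chain table 0 of mask 4. -/
def chainF4_4_0 : List (ℕ × ℕ × ℕ) :=
 [(4, 1, 0x1)]

/-- Chain table 1 of mask 4. -/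
def chainF4_4_1 : List (ℕ × ℕ × ℕ) :=
 [(4, 2, 0x100000001)]

/-- Chain table 2 of mask 4. -/
def chainF4_4_2 : List (ℕ × ℕ × ℕ) :=
 [(7, 2, 0x100000001),
  (6, 2, 0x100000001),
  (4, 2, 0x100000001)]

/-- Chain table 3 of mask 4. -/
def chainF4_4_3 : List (ℕ × ℕ × ℕ) :=
 [(7, 6, 0x10000000300000004000000040000000300000001),
  (6, 6, 0x10000000300000004000000040000000300000001),
  (4, 6, 0x10000000300000004000000040000000300000001)]

/-- The chain tables of mask 4. -/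
def chainF4_4 : List (List (ℕ × ℕ × ℕ)) :=
 [chainF4_4_0, chainF4_4_1, chainF4_4_2, chainF4_4_3]

theorem chkTbl_F4 : chkTbl tabF4 4 tblF4 = true := by decide +kernel

theorem chkOdd_F4 : chkOdd tabF4 4 = true := by decide +kernel

theorem chkOrbits_F4 :
    chkOrbits tblF4 4 1 4 orbitF4_1 orbitF4_4 = true := by decide +kernel

end Cfsg.Agent.H90.Invol
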