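import Cfsg.Agent.H90.Invol.Flip
import Cfsg.Agent.H46.Order

/-!
# Every involution of a Chevalley group of odd characteristic is conjugate into the torus

Bruhat's normal form moves an involution into `N`; a descent induction on the Weyl group element moves it into `H`.
-/

set_option autoImplicit false

namespace Cfsg.Agent.H90.Invol

open Cfsg.Lie Cfsg.Agent.H46
open scoped Matrix MatrixGroups

variable {D : ChevalleyDatum} (G : Good D) {F : Type*} [Field F]

/-- `i` is a descent of `σ`. -/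
def Desc (σ : Equiv.Perm (Fin D.nroots)) (i : Fin D.rank) : Prop := D.IsNegRoot (σ (G.simpleF i))

/-- Every descent of `σ` is negated. -/
def Negated (σ : Equiv.Perm (Fin D.nroots)) : Prop :=
  ∀ i, Desc G σ i → σ (G.simpleF i) = G.negF (G.simpleF i)

include G

theorem sPerm_symm (i : Fin D.rank) (s : Fin D.nroots) : G.sPerm i (G.sPerm i s) = s := by
  rw [← Equiv.Perm.mul_apply, G.sPerm_mul_self]; rfl

theorem sPerm_pos (i : Fin D.rank) {s : Fin D.nroots} (hs : D.IsPosRoot s) (hne : s ≠ G.simpleF i) :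
    D.IsPosRoot (G.sPerm i s) :=
  G.isPosRoot_reflect i.2 hs fun e => hne (Fin.ext e)

theorem isPosRoot_negF {s : Fin D.nroots} (h : D.IsNegRoot s) : D.IsPosRoot (G.negF s) := G.isPosRoot_neg h

theorem sPerm_neg (i : Fin D.rank) {s : Fin D.nroots} (hs : D.IsNegRoot s) (hne : s ≠ G.negF (G.simpleF i)) :
    D.IsNegRoot (G.sPerm i s) := by
  have h := sPerm_pos G i (isPosRoot_negF G hs) fun e => hne (by rw [← e, G.negF_negF])
  rw [G.sPerm_negF] at h
  rw [← G.negF_negF (G.sPerm i s)]
  exact G.isNegRoot_neg h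

theorem perm_ng_unit (i : Fin D.rank) {a : F} (ha : a ≠ 0) : G.perm (G.ng (D.simple i) a) = G.sPerm i := by
  have hh := G.hg_mem_diagonal (F := F) (G.simple_lt i.2) ha
  rw [G.ng_eq_hg_mul, G.perm_mul (Subgroup.mem_sup_left hh) (G.ng_mem_monomial (G.simple_lt i.2)),
    G.perm_diagonal hh, one_mul, G.perm_ng_simple]

theorem nInv_perm_inv {n : GL D.Idx F} (hn : n ∈ D.monomialSubgroup F) :
    G.nInv (G.perm n)⁻¹ = G.nInv (G.perm n) := by
  classical
  rw [Good.nInv, Good.nInv]
  refine Finset.card_bij (fun r _ => G.negF ((G.perm n)⁻¹ r)) (fun r hr => ?_)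
    (fun a _ b _ h => ?_) (fun r hr => ?_)
  · simp only [Finset.mem_filter, Finset.mem_univ, true_and] at hr ⊢
    refine ⟨isPosRoot_negF G hr.2, ?_⟩
    rw [G.perm_negF hn, show G.perm n ((G.perm n)⁻¹ r) = r from Equiv.apply_symm_apply _ _]
    exact G.isNegRoot_neg hr.1
  · exact (G.perm n)⁻¹.injective (by simpa [G.negF_negF] using congrArg G.negF h)
  · simp only [Finset.mem_filter, Finset.mem_univ, true_and] at hr ⊢
    refine ⟨G.negF (G.perm n r), ⟨isPosRoot_negF G hr.2, ?_⟩, ?_⟩
    · rw [← G.perm_negF hn, show (G.perm n)⁻¹ (G.perm n (G.negF r)) = G.negF r from Equiv.symm_apply_apply _ _]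
      exact G.isNegRoot_neg hr.1
    · rw [← G.perm_negF hn, show (G.perm n)⁻¹ (G.perm n (G.negF r)) = G.negF r from Equiv.symm_apply_apply _ _,
        G.negF_negF]

/-- Right multiplication by a descent lowers the length. -/
theorem nInv_mul_lt {n : GL D.Idx F} (hn : n ∈ D.monomialSubgroup F) {i : Fin D.rank}
    (h : Desc G (G.perm n) i) : G.nInv (G.perm n * G.sPerm i) < G.nInv (G.perm n) := by
  classical
  have hmem : G.simpleF i ∈ Finset.univ.filter fun r : Fin D.nroots => D.IsPosRoot r ∧ D.IsNegRoot (G.perm n r) := by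
    simp only [Finset.mem_filter, Finset.mem_univ, true_and]
    exact ⟨G.isPosRoot_simple i.2, h⟩
  refine lt_of_le_of_lt (Finset.card_le_card_of_injOn (fun r => G.sPerm i r) (fun r hr => ?_)
    (fun a _ b _ hab => (G.sPerm i).injective hab)) (Finset.card_erase_lt_of_mem hmem)
  have hr := (Finset.mem_filter.1 (Finset.mem_coe.1 hr)).2
  simp only [Equiv.Perm.mul_apply] at hr
  simp only [Finset.mem_coe, Finset.mem_erase, Finset.mem_filter, Finset.mem_univ, true_and]
  have hne : r ≠ G.simpleF i := by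
    rintro rfl
    have h2 := hr.2
    rw [G.sPerm_simple, G.perm_negF hn] at h2
    exact G.not_isNegRoot (isPosRoot_negF G h) h2
  refine ⟨fun e => ?_, sPerm_pos G i hr.1 hne, hr.2⟩
  have h3 : r = G.negF (G.simpleF i) := by rw [← sPerm_symm G i r, e, G.sPerm_simple]
  exact G.not_isNegRoot (r := r.val) hr.1 (by rw [h3]; exact G.isNegRoot_neg (G.isPosRoot_simple i.2))

/-- Left multiplication by a descent of the inverse lowers the length. -/
theorem nInv_left_lt {n : GL D.Idx F} (hn : n ∈ D.monomialSubgroup F) {i : Fin D.rank}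
    (h : Desc G (G.perm n)⁻¹ i) {m : GL D.Idx F} (hm : m ∈ D.monomialSubgroup F)
    (hperm : G.perm m = G.sPerm i * G.perm n) : G.nInv (G.perm m) < G.nInv (G.perm n) := by
  rw [← nInv_perm_inv G hm, ← nInv_perm_inv G hn, hperm, mul_inv_rev,
    inv_eq_of_mul_eq_one_right (G.sPerm_mul_self i), ← G.perm_inv hn]
  exact nInv_mul_lt G (inv_mem hn) (by rwa [G.perm_inv hn])

theorem inv_desc_of_negated {n : GL D.Idx F} (hn : n ∈ D.monomialSubgroup F) {i : Fin D.rank}
    (h : G.perm n (G.simpleF i) = G.negF (G.simpleF i)) : Desc G (G.perm n)⁻¹ i := by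
  have e : G.perm n (G.negF (G.simpleF i)) = G.simpleF i := by rw [G.perm_negF hn, h, G.negF_negF]
  have e2 : (G.perm n)⁻¹ (G.simpleF i) = G.negF (G.simpleF i) := (Equiv.symm_apply_eq _).2 e.symm
  rw [Desc, e2]
  exact G.isNegRoot_neg (G.isPosRoot_simple i.2)

theorem sPerm_fix {i j : Fin D.rank} (h : G.tab.cm i j = 0) : G.sPerm i (G.simpleF j) = G.simpleF j := by
  refine Fin.ext (G.rc_injective (G.sPerm i _).2 (G.simpleF j).2 ?_)
  rw [G.sPerm_apply, G.rc_reflect i.2 (G.simpleF j).2,
    show D.cartan i (G.simpleF j).val = 0 by rw [show (G.simpleF j).val = D.simple j from rfl, ← G.cm_eq j.2 i.2, h],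
    zero_smul, sub_zero]

/-- If all descents are negated and pairwise orthogonal and `m² = torus y`, every other coordinate of `y` is a
square. -/
theorem square_of_orth (hinj : Function.Injective (G.torus (F := F))) :
    ∀ (k : ℕ) (m : GL D.Idx F), m ∈ D.monomialSubgroup F → G.nInv (G.perm m) = k → Negated G (G.perm m) →
      (∀ i j, Desc G (G.perm m) i → Desc G (G.perm m) j → i ≠ j → G.tab.cm i j = 0) →
      ∀ y, m * m = G.torus y → ∀ j, ¬ Desc G (G.perm m) j → IsSquare (y j) := by
  intro k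
  induction k using Nat.strong_induction_on with
  | _ k ih =>
    intro m hm hk hneg horth y hy j hj
    by_cases hex : ∃ i, Desc G (G.perm m) i
    swap
    · simp only [not_exists] at hex
      obtain ⟨z, rfl⟩ := G.mem_diagonal.1
        (G.mem_diagonal_of_pos hm fun i => (G.isPosRoot_iff_not_neg (G.perm m _).2).2 (hex i))
      exact ⟨z j, by rw [← congrFun (hinj ((map_mul _ _ _).trans hy)) j]; rfl⟩
    obtain ⟨i, hi⟩ := hex
    have hsi := G.simple_lt i.2
    set α := G.simpleF i with hα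
    set m' := (G.ng (D.simple i) (1 : F))⁻¹ * m with hm'
    have hm'N : m' ∈ D.monomialSubgroup F := mul_mem (inv_mem (G.ng_mem_monomial hsi)) hm
    have hperm : G.perm m' = G.sPerm i * G.perm m := by
      rw [hm', G.perm_mul (inv_mem (G.ng_mem_monomial hsi)) hm, G.perm_inv (G.ng_mem_monomial hsi),
        G.perm_ng_simple, inv_eq_of_mul_eq_one_right (G.sPerm_mul_self i)]
    have hfix : G.perm m' α = α := by
      rw [hperm, Equiv.Perm.mul_apply, hneg i hi, G.sPerm_negF, G.sPerm_simple, G.negF_negF]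
    have hlt : G.nInv (G.perm m') < k :=
      hk ▸ nInv_left_lt G hm (inv_desc_of_negated G hm (hneg i hi)) hm'N hperm
    have hdesc : ∀ l, Desc G (G.perm m') l → l ≠ i ∧ Desc G (G.perm m) l := by
      intro l hl
      have hli : l ≠ i := by
        rintro rfl
        rw [Desc, ← hα, hfix] at hl
        exact G.not_isNegRoot (G.isPosRoot_simple l.2) hl
      refine ⟨hli, ?_⟩
      by_contra hc
      have hpos := (G.isPosRoot_iff_not_neg (G.perm m _).2).2 hc
      have hne : G.perm m (G.simpleF l) ≠ α := by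
        intro e
        have e' : G.perm m (G.negF α) = α := by rw [G.perm_negF hm, hneg i hi, G.negF_negF]
        have e3 : G.simpleF l = G.negF α := (G.perm m).injective (e.trans e'.symm)
        exact G.not_isNegRoot (G.isPosRoot_simple l.2)
          (show D.IsNegRoot (G.simpleF l) from e3 ▸ G.isNegRoot_neg (G.isPosRoot_simple i.2))
      rw [Desc, hperm, Equiv.Perm.mul_apply] at hl
      exact G.not_isNegRoot (sPerm_pos G i hpos hne) hl
    have hneg' : Negated G (G.perm m') := by
      intro l hl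
      obtain ⟨hli, hl'⟩ := hdesc l hl
      rw [hperm, Equiv.Perm.mul_apply, hneg l hl', G.sPerm_negF, sPerm_fix G (horth i l hi hl' (Ne.symm hli))]
    obtain ⟨b, hb⟩ := G.monRel_conj_ng (G.monRel_perm hm'N) α
    have hb1 := hb 1
    rw [hfix, mul_one, show (α : ℕ) = D.simple i from rfl] at hb1
    set δ : Fin D.rank → Fˣ := Pi.mulSingle i (-b⁻¹) with hδ
    have hsq : m * m = G.torus δ * (m' * m') := by
      have e1 : G.ng (D.simple i) (1 : F) * G.ng (D.simple i) (b : F) = G.torus δ := by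
        rw [hδ, G.torus_mulSingle, G.ng_mul_ng hsi one_ne_zero b.ne_zero]
        simp [one_div]
      rw [← e1, ← hb1, hm']
      group
    refine (fun h : IsSquare ((δ⁻¹ * y) j) => ?_)
      (ih _ hlt m' hm'N rfl hneg' (fun a c ha hc => horth a c (hdesc a ha).2 (hdesc c hc).2) (δ⁻¹ * y)
        (by rw [map_mul, map_inv, ← hy, hsq, inv_mul_cancel_left]) j fun h => hj (hdesc j h).2)
    have hji : j ≠ i := fun e => hj (e ▸ hi)
    simpa [hδ, hji] using h

variable [Fintype F]

/-- An involution is conjugate into `N`. -/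
theorem exists_monomial_conj (hF : Odd (Fintype.card F)) {t : GL D.Idx F} (ht : t ∈ D.group F) (h2 : t * t = 1) :
    ∃ n ∈ D.monomialSubgroup F, n * n = 1 ∧ CJ G t n := by
  classical
  obtain ⟨n₀, hn₀, hcell⟩ := G.bruhat ht
  obtain ⟨b, hb, v, hv, e⟩ := G.bruhatCell_normal_form hn₀ hcell
  obtain ⟨u, hu, h, hh, rfl⟩ := G.mem_borel.1 hb
  set n := h * n₀ with hndef
  have hn : n ∈ D.monomialSubgroup F := mul_mem (Subgroup.mem_sup_left hh) hn₀
  have hS : G.invSet n = G.invSet n₀ := by
    have : G.perm n = G.perm n₀ := by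
      rw [hndef, G.perm_mul (Subgroup.mem_sup_left hh) hn₀, G.perm_diagonal hh, one_mul]
    simp [Good.invSet, this]
  have hw : v * u ∈ D.posUnipotent F := mul_mem (G.posSub_le_posUnipotent _ hv) hu
  set T := u⁻¹ * t * u with hT
  have hTeq : T = n * (v * u) := by rw [hT, e, hndef]; group
  have hT2 : T * T = 1 := by
    rw [hT, show u⁻¹ * t * u * (u⁻¹ * t * u) = u⁻¹ * (t * t) * u by group, h2]; simp
  have hUB : ∀ {x : GL D.Idx F}, x ∈ D.posUnipotent F → x ∈ D.borelSubgroup F := fun hx =>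
    Subgroup.mem_sup_left hx
  -- `n` and `n⁻¹` lie in the same double coset
  have hperm : G.perm n = G.perm n⁻¹ := by
    refine G.perm_eq_of_double_coset (hUB hw) (inv_mem (hUB hw)) hn (inv_mem hn) ?_
    have h' := eq_inv_of_mul_eq_one_left hT2
    rw [hTeq, mul_inv_rev] at h'
    calc v * u * n = v * u * (n * (v * u)) * (v * u)⁻¹ := by group
      _ = n⁻¹ * (v * u)⁻¹ := by rw [h']; group
  have hnn : n * n ∈ D.diagonalSubgroup F := by
    rw [← G.perm_eq_one_iff (mul_mem hn hn), G.perm_mul hn hn]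
    nth_rewrite 1 [hperm]
    rw [G.perm_inv hn, inv_mul_cancel]
  obtain ⟨y, hy, x, hx, hyx⟩ := G.factor (G.invSet n)ᶜ hw
  rw [compl_compl] at hx
  have hyU := G.posSub_le_posUnipotent _ hy
  have hxU := G.posSub_le_posUnipotent _ hx
  have hny := G.conj_posSub_compl hn hy
  have hfull : n * y * n⁻¹ * (n * x * n⁻¹) * (n * n) * y * x = 1 := by
    rw [← hT2, hTeq, hyx]; group
  have hnx : n * x * n⁻¹ = (n * y * n⁻¹)⁻¹ * x⁻¹ * y⁻¹ * (n * n)⁻¹ := by
    calc n * x * n⁻¹ = (n * y * n⁻¹)⁻¹ * (n * y * n⁻¹ * (n * x * n⁻¹) * (n * n) * y * x) * x⁻¹ * y⁻¹ * (n * n)⁻¹ := by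
          group
      _ = _ := by rw [hfull]; group
  have hx1 : x = 1 := by
    have : n * x * n⁻¹ ∈ D.borelSubgroup F ⊓ D.negUnipotent F := by
      refine Subgroup.mem_inf.2 ⟨?_, G.conj_posSub_invSet hn hx⟩
      rw [hnx]
      exact mul_mem (mul_mem (mul_mem (inv_mem (hUB hny)) (inv_mem (hUB hxU))) (inv_mem (hUB hyU)))
        (inv_mem (Subgroup.mem_sup_right hnn))
    rw [G.borel_inf_neg, Subgroup.mem_bot] at this
    exact conj_eq_one_iff.1 this
  subst hx1
  rw [mul_one] at hyx
  have hn2 : n * n = 1 := by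
    have e2 : n * n = (n * y * n⁻¹)⁻¹ * y⁻¹ := by
      calc n * n = (n * y * n⁻¹)⁻¹ * (n * y * n⁻¹ * (n * 1 * n⁻¹) * (n * n) * y * 1) * y⁻¹ := by group
        _ = _ := by rw [hfull]; group
    refine (Subgroup.eq_bot_iff_forall _).1 (G.posUnipotent_inf_diagonal (F := F)) _ (Subgroup.mem_inf.2 ⟨?_, hnn⟩)
    rw [e2]
    exact mul_mem (inv_mem hny) (inv_mem hyU)
  have hinvert : n * y * n⁻¹ = y⁻¹ := by
    rw [hn2] at hfull
    simp only [mul_one, mul_inv_cancel] at hfull
    exact eq_inv_of_mul_eq_one_left hfull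
  obtain ⟨a, ha⟩ : Odd (Nat.card (D.posUnipotent F)) := by
    rw [G.posUnipotent_eq, G.card_posSub G.posClosed_univ, Nat.card_eq_fintype_card]
    exact hF.pow
  set z := y ^ (a + 1) with hz
  have hzz : z * z = y := by
    have h1 : (⟨y, hyU⟩ : D.posUnipotent F) ^ Nat.card (D.posUnipotent F) = 1 := pow_card_eq_one'
    have h1' := congrArg Subtype.val h1
    rw [SubmonoidClass.coe_pow, OneMemClass.coe_one, ha] at h1'
    rw [hz, ← pow_add, show a + 1 + (a + 1) = (2 * a + 1) + 1 by ring, pow_succ, h1', one_mul]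
  have hzn : n * z * n⁻¹ = z⁻¹ := by rw [hz, ← conj_pow, hinvert, inv_pow]
  refine ⟨n, hn, hn2, z * u⁻¹, mul_mem (G.posUnipotent_le_group (pow_mem hyU _))
    (inv_mem (G.posUnipotent_le_group hu)), ?_⟩
  rw [show z * u⁻¹ * t * (z * u⁻¹)⁻¹ = z * T * z⁻¹ by rw [hT]; group, hTeq, hyx, ← hzz,
    show n * (z * z) = n * z * n⁻¹ * n * z by group, hzn]
  group

/-- An involution of `N` is conjugate into `H`. -/
theorem exists_torus_conj (hF : Odd (Fintype.card F)) (hinj : Function.Injective (G.torus (F := F)))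
    (hodd : ∀ i j : Fin D.rank, i ≠ j →
      (G.tab.cm i j = 0 ∧ G.tab.cm j i = 0) ∨ G.tab.cm i j % 2 = 1 ∨ G.tab.cm j i % 2 = 1) :
    ∀ (k : ℕ) (n : GL D.Idx F), n ∈ D.monomialSubgroup F → n * n = 1 → G.nInv (G.perm n) = k →
      ∃ z, z * z = 1 ∧ CJ G n (G.torus z) := by
  have hF2 : (2 : F) ≠ 0 := Ring.two_ne_zero fun h => by
    have := FiniteField.even_card_iff_char_two.1 h
    obtain ⟨a, ha⟩ := hF
    omega
  intro k
  induction k using Nat.strong_induction_on with
  | _ k ih =>
    intro n hn h2 hk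
    have hinv : n⁻¹ = n := inv_eq_of_mul_eq_one_right h2
    have hσ : (G.perm n)⁻¹ = G.perm n := by rw [← G.perm_inv hn, hinv]
    have recur : ∀ m, m ∈ D.monomialSubgroup F → CJ G n m → G.nInv (G.perm m) < k →
        ∃ z, z * z = 1 ∧ CJ G n (G.torus z) := fun m hm hc hlt => by
      obtain ⟨z, hz, hz'⟩ := ih _ hlt m hm (hc.mul_self G h2) rfl
      exact ⟨z, hz, hc.trans G hz'⟩
    by_cases hneg : Negated G (G.perm n)
    swap
    · -- a descent which is not negated: conjugate by `n_i`
      simp only [Negated, not_forall, exists_prop] at hneg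
      obtain ⟨i, hi, hne⟩ := hneg
      have hN := G.ng_mem_monomial (F := F) (G.simple_lt i.2)
      have hp : G.perm (G.ng (D.simple i) (1 : F) * n) = G.sPerm i * G.perm n := by
        rw [G.perm_mul hN hn, G.perm_ng_simple]
      refine recur _ (mul_mem (mul_mem hN hn) (inv_mem hN)) ⟨_, G.ng_mem_group _ _, rfl⟩ ?_
      rw [G.perm_mul (mul_mem hN hn) (inv_mem hN), G.perm_inv hN, G.perm_ng_simple,
        inv_eq_of_mul_eq_one_right (G.sPerm_mul_self i)]
      refine lt_trans (nInv_mul_lt G (mul_mem hN hn) ?_) ?_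
      · rw [Desc, hp, Equiv.Perm.mul_apply]
        exact sPerm_neg G i hi hne
      · exact hk ▸ nInv_left_lt G hn (by rwa [hσ]) (mul_mem hN hn) hp
    by_cases hex : ∃ i, Desc G (G.perm n) i
    swap
    · simp only [not_exists] at hex
      obtain ⟨z, rfl⟩ := G.mem_diagonal.1
        (G.mem_diagonal_of_pos hn fun i => (G.isPosRoot_iff_not_neg (G.perm n _).2).2 (hex i))
      exact ⟨z, hinj (by rw [map_mul, h2, map_one]), CJ.refl G _⟩
    -- the scalars on the descents
    obtain ⟨⟨c, hc, hconj⟩, -⟩ := G.monRel_perm hn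
    have hscal : ∀ i, Desc G (G.perm n) i →
        (∀ t : F, n * G.xg (D.simple i) t * n⁻¹ = G.xg (D.neg (D.simple i)) ((c (G.simpleF i) : F) * t)) ∧
        ∀ t : F, n * G.xg (D.neg (D.simple i)) t * n⁻¹ =
          G.xg (D.simple i) ((((c (G.simpleF i))⁻¹ : Fˣ) : F) * t) := by
      intro i hi
      refine ⟨fun t => by
        have := hconj (G.simpleF i) t; rw [hneg i hi] at this; exact this, fun t => ?_⟩
      have := hconj (G.negF (G.simpleF i)) t
      rw [G.perm_negF hn, hneg i hi, G.negF_negF, ← inv_eq_of_mul_eq_one_right (hc (G.simpleF i))] at this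
      exact this
    have reduce : ∀ (i : Fin D.rank) (m : GL D.Idx F) (d e : Fˣ), Desc G (G.perm n) i →
        m ∈ D.monomialSubgroup F → CJ G n m → G.perm m = G.perm n →
        (∀ t : F, m * G.xg (D.simple i) t * m⁻¹ = G.xg (D.neg (D.simple i)) ((e : F) * t)) → e = d * d →
        ∃ z, z * z = 1 ∧ CJ G n (G.torus z) := by
      intro i m d e hi hm hnm hpm he hde
      have hm2 : m⁻¹ = m := inv_eq_of_mul_eq_one_right (hnm.mul_self G h2)
      have he2 : ∀ t : F, m * G.xg (D.neg (D.simple i)) t * m⁻¹ = G.xg (D.simple i) (((e⁻¹ : Fˣ) : F) * t) := by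
        intro t
        have := congrArg (fun g => m * g * m⁻¹) (he (((e⁻¹ : Fˣ) : F) * t))
        simp only [← mul_assoc, Units.mul_inv, one_mul] at this
        rw [← this, hm2, hnm.mul_self G h2, one_mul, mul_assoc, hnm.mul_self G h2, mul_one]
      have hd0 : (d : F)⁻¹ ≠ 0 := inv_ne_zero d.ne_zero
      have hN := G.ng_mem_N (G.simple_lt i.2) hd0
      refine recur _ (mul_mem hN hm) (hnm.trans G (flip_square G hF2 (G.simple_lt i.2) he he2 hde)) ?_
      refine hk ▸ nInv_left_lt G hn (by rwa [hσ]) (mul_mem hN hm) ?_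
      rw [G.perm_mul hN hm, perm_ng_unit G i hd0, hpm]
    by_cases hsquare : ∃ i, Desc G (G.perm n) i ∧ IsSquare (c (G.simpleF i))
    · obtain ⟨i, hi, d, hd⟩ := hsquare
      exact reduce i n d _ hi hn (CJ.refl G n) rfl (hscal i hi).1 hd
    by_cases hpair : ∃ i j, Desc G (G.perm n) i ∧ Desc G (G.perm n) j ∧ G.tab.cm i j % 2 = 1
    · obtain ⟨i, j, hi, hj, hij⟩ := hpair
      have hsi := G.simple_lt i.2
      have hsj := G.simple_lt j.2
      set ci := c (G.simpleF i)
      set cj := c (G.simpleF j)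
      obtain ⟨a, b, hab⟩ := FiniteField.exists_root_sum_quadratic
        (f := (Polynomial.X ^ 2 - Polynomial.C (cj : F))) (g := Polynomial.C (-(ci : F)) * Polynomial.X ^ 2)
        (Polynomial.degree_X_pow_sub_C two_pos _)
        (Polynomial.degree_C_mul_X_pow 2 (neg_ne_zero.2 ci.ne_zero)) (Nat.odd_iff.1 hF)
      simp only [Polynomial.eval_sub, Polynomial.eval_pow, Polynomial.eval_X, Polynomial.eval_C,
        Polynomial.eval_mul] at hab
      have hcj : a * a - (ci : F) * (b * b) = (cj : F) := by linear_combination hab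
      have hnm := flip_torus G hsi (hscal i hi).1 (hscal i hi).2 cj.ne_zero hcj
      have hh := G.hg_mem_diagonal (F := F) hsi cj.ne_zero
      set p := D.pairing (D.simple i) (D.neg (D.simple j)) with hp
      have hpodd : Even (p + 1) := by
        rw [hp, G.pairing_neg hsi hsj, G.pairing_simple i.2 hsj, ← G.cm_eq j.2 i.2]
        rw [Int.even_iff]; omega
      obtain ⟨d, hd⟩ := hpodd.isSquare_zpow cj
      refine reduce j _ d _ hj (mul_mem (Subgroup.mem_sup_left hh) hn) hnm
        (by rw [G.perm_mul (Subgroup.mem_sup_left hh) hn, G.perm_diagonal hh, one_mul]) (fun t => ?_) hd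
      rw [show G.hg (D.simple i) (cj : F) * n * G.xg (D.simple j) t * (G.hg (D.simple i) (cj : F) * n)⁻¹ =
        G.hg (D.simple i) (cj : F) * (n * G.xg (D.simple j) t * n⁻¹) * (G.hg (D.simple i) (cj : F))⁻¹ by group,
        (hscal j hj).1, G.hg_mul_xg hsi (G.neg_lt hsj) cj.ne_zero, mul_inv_cancel_right, ← hp]
      congr 1
      rw [zpow_add_one, Units.val_mul, Units.val_zpow_eq_zpow_val, mul_assoc]
    -- all descents are orthogonal
    obtain ⟨i, hi⟩ := hex
    exfalso
    apply hsquare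
    have horth : ∀ a b, Desc G (G.perm n) a → Desc G (G.perm n) b → a ≠ b → G.tab.cm a b = 0 := by
      intro a b ha hb hne
      rcases hodd a b hne with h | h | h
      · exact h.1
      · exact absurd ⟨a, b, ha, hb, h⟩ hpair
      · exact absurd ⟨b, a, hb, ha, h⟩ hpair
    refine ⟨i, hi, ?_⟩
    have hsi := G.simple_lt i.2
    set ci := c (G.simpleF i) with hci
    set m := (G.ng (D.simple i) (1 : F))⁻¹ * n with hm
    have hmN : m ∈ D.monomialSubgroup F := mul_mem (inv_mem (G.ng_mem_monomial hsi)) hn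
    have hperm : G.perm m = G.sPerm i * G.perm n := by
      rw [hm, G.perm_mul (inv_mem (G.ng_mem_monomial hsi)) hn, G.perm_inv (G.ng_mem_monomial hsi),
        G.perm_ng_simple, inv_eq_of_mul_eq_one_right (G.sPerm_mul_self i)]
    have hdesc : ∀ l, Desc G (G.perm m) l → l ≠ i ∧ Desc G (G.perm n) l := by
      intro l hl
      rw [Desc, hperm, Equiv.Perm.mul_apply] at hl
      have hli : l ≠ i := by
        rintro rfl
        rw [hneg l hi, G.sPerm_negF, G.sPerm_simple, G.negF_negF] at hl
        exact G.not_isNegRoot (G.isPosRoot_simple l.2) hl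
      refine ⟨hli, ?_⟩
      by_contra hc'
      refine G.not_isNegRoot (sPerm_pos G i ((G.isPosRoot_iff_not_neg (G.perm n _).2).2 hc') fun e => ?_) hl
      have e' : G.perm n (G.negF (G.simpleF i)) = G.simpleF i := by rw [G.perm_negF hn, hneg i hi, G.negF_negF]
      have e3 := (G.perm n).injective (e.trans e'.symm)
      exact G.not_isNegRoot (G.isPosRoot_simple l.2)
        (show D.IsNegRoot (G.simpleF l) from e3 ▸ G.isNegRoot_neg (G.isPosRoot_simple i.2))
    have hsqm : m * m = G.torus (Pi.mulSingle i ci) := by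
      obtain ⟨φ, -, hX, hY, hint⟩ := exists_intertwine G (F := F) hsi
      have e1 := hint n ci (hscal i hi).1 (hscal i hi).2 (slX (-1) * slY (-(-1 : F)⁻¹) * slX (-1))
      rw [slHom_hat G hX hY, show conjA ci (slX (-1) * slY (-(-1 : F)⁻¹) * slX (-1)) =
        slX (ci : F)⁻¹ * slY (-((ci : F)⁻¹)⁻¹) * slX (ci : F)⁻¹ from Subtype.ext (by
          have := ci.ne_zero
          simp only [coe_conjA, sl_mul_val, coe_slX, coe_slY]
          ext a b
          fin_cases a <;> fin_cases b <;>
            simp [Matrix.mul_apply, Fin.sum_univ_two]), slHom_hat G hX hY] at e1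
      rw [G.torus_mulSingle, hm, G.ng_inv]
      calc G.ng (D.simple i) (-1 : F) * n * (G.ng (D.simple i) (-1) * n)
          = G.ng (D.simple i) (-1 : F) * (n * G.ng (D.simple i) (-1) * n⁻¹) * (n * n) := by group
        _ = _ := by
            rw [e1, h2, mul_one, G.ng_mul_ng hsi (neg_ne_zero.2 one_ne_zero) (inv_ne_zero ci.ne_zero)]
            simp [neg_div]
    have := square_of_orth G hinj _ m hmN rfl
      (fun l hl => by
        obtain ⟨hli, hl'⟩ := hdesc l hl
        rw [hperm, Equiv.Perm.mul_apply, hneg l hl', G.sPerm_negF, sPerm_fix G (horth i l hi hl' (Ne.symm hli))])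
      (fun a b ha hb => horth a b (hdesc a ha).2 (hdesc b hb).2) _ hsqm i (fun h => (hdesc i h).1 rfl)
    simpa using this

end Cfsg.Agent.H90.Invol
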