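import Cfsg.Agent.H46.SL2Hom
import Cfsg.Agent.H46.WeylPoly
import Mathlib.FieldTheory.Finite.Basic

/-!
# Moving an involution of `N` inside a fundamental `SL₂`

If an element `n` of `N` exchanges `x_r` and `x_{-r}` with scalar `c`, conjugation by the image of `SL₂` multiplies
`n` by `h_r(x)` for any `x` of the form `a² - c b²`, and by `n_r(1/d)` when `c = d²`.
-/

set_option autoImplicit false

namespace Cfsg.Agent.H90.Invol

open Cfsg.Lie Cfsg.Agent.H46
open scoped Matrix MatrixGroups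

variable {D : ChevalleyDatum} (G : Good D) {F : Type*} [Field F]

/-- Conjugacy by an element of the Chevalley group. -/
def CJ (_G : Good D) (a b : GL D.Idx F) : Prop := ∃ g ∈ D.group F, g * a * g⁻¹ = b

theorem CJ.refl (a : GL D.Idx F) : CJ G a a := ⟨1, one_mem _, by simp⟩

theorem CJ.trans {a b c : GL D.Idx F} (h : CJ G a b) (h' : CJ G b c) : CJ G a c := by
  obtain ⟨g, hg, rfl⟩ := h
  obtain ⟨g', hg', rfl⟩ := h'
  exact ⟨g' * g, mul_mem hg' hg, by group⟩

theorem CJ.symm {a b : GL D.Idx F} (h : CJ G a b) : CJ G b a := by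
  obtain ⟨g, hg, rfl⟩ := h
  exact ⟨g⁻¹, inv_mem hg, by group⟩

theorem CJ.mul_self {a b : GL D.Idx F} (h : CJ G a b) (ha : a * a = 1) : b * b = 1 := by
  obtain ⟨g, -, rfl⟩ := h
  rw [show g * a * g⁻¹ * (g * a * g⁻¹) = g * (a * a) * g⁻¹ by group, ha]
  simp

/-- The matrix of `g` conjugated by `[[0,1],[c,0]]`. -/
def conjMat (c : Fˣ) (g : Matrix (Fin 2) (Fin 2) F) : Matrix (Fin 2) (Fin 2) F :=
  !![g 1 1, g 1 0 / (c : F); g 0 1 * (c : F), g 0 0]

theorem conjMat_mul (c : Fˣ) (g h : Matrix (Fin 2) (Fin 2) F) :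
    conjMat c (g * h) = conjMat c g * conjMat c h := by
  have hc := c.ne_zero
  ext i j
  fin_cases i <;> fin_cases j <;> simp [conjMat, Matrix.mul_apply, Fin.sum_univ_two] <;> field_simp <;> ring

/-- Conjugation of `SL₂` by `[[0,1],[c,0]]`. -/
def conjA (c : Fˣ) : Matrix.SpecialLinearGroup (Fin 2) F →* Matrix.SpecialLinearGroup (Fin 2) F :=
  MonoidHom.mk' (fun g => ⟨conjMat c g.1, by
    have h := sl_det g
    have hc := c.ne_zero
    simp only [conjMat, Matrix.det_fin_two_of]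
    field_simp
    linear_combination h⟩) fun g h => Subtype.ext (conjMat_mul c g.1 h.1)

theorem coe_conjA (c : Fˣ) (g : Matrix.SpecialLinearGroup (Fin 2) F) :
    (conjA c g).1 = !![g.1 1 1, g.1 1 0 / (c : F); g.1 0 1 * (c : F), g.1 0 0] := rfl

theorem slW_eq : (slW : Matrix.SpecialLinearGroup (Fin 2) F) = slX 1 * slY (-1) * slX 1 := by
  apply Subtype.ext
  ext i j
  fin_cases i <;> fin_cases j <;> simp [sl_mul_val, coe_slX, coe_slY, coe_slW, Matrix.mul_apply, Fin.sum_univ_two]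

include G

/-- An element exchanging `x_r` and `x_{-r}` acts on the image of `SL₂` as `conjA`. -/
theorem exists_intertwine {r : ℕ} (hr : r < D.nroots) :
    ∃ φ : Matrix.SpecialLinearGroup (Fin 2) F →* GL D.Idx F,
      (∀ g, φ g ∈ D.group F) ∧ (∀ t, φ (slX t) = G.xg r t) ∧ (∀ t, φ (slY t) = G.xg (D.neg r) t) ∧
      ∀ (n : GL D.Idx F) (c : Fˣ), (∀ t : F, n * G.xg r t * n⁻¹ = G.xg (D.neg r) ((c : F) * t)) →
        (∀ t : F, n * G.xg (D.neg r) t * n⁻¹ = G.xg r (((c⁻¹ : Fˣ) : F) * t)) →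
        ∀ g, n * φ g * n⁻¹ = φ (conjA c g) := by
  obtain ⟨φ, hrange, hφ⟩ := G.exists_slHom (F := F) hr
  have hX : ∀ t, φ (slX t) = G.xg r t := fun t => G.eq_xg ((hφ _ t).1 (coe_slX t))
  have hY : ∀ t, φ (slY t) = G.xg (D.neg r) t := fun t => G.eq_xg ((hφ _ t).2 (coe_slY t))
  refine ⟨φ, fun g => ?_, hX, hY, fun n c h1 h2 g => ?_⟩
  · refine sl_generated ((D.group F).comap φ) (fun t => ?_) ?_ g
    · rw [Subgroup.mem_comap, hX]; exact G.xg_mem_group _ _
    · rw [Subgroup.mem_comap, slW_eq, map_mul, map_mul, hX, hY]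
      exact mul_mem (mul_mem (G.xg_mem_group _ _) (G.xg_mem_group _ _)) (G.xg_mem_group _ _)
  · let S := MonoidHom.eqLocus ((MulAut.conj n).toMonoidHom.comp φ) (φ.comp (conjA c))
    have hSX : ∀ t, slX t ∈ S := fun t => by
      show n * φ (slX t) * n⁻¹ = φ (conjA c (slX t))
      rw [hX, h1, show conjA c (slX t) = slY ((c : F) * t) from Subtype.ext (by
        rw [coe_conjA, coe_slX, coe_slY]
        ext i j; fin_cases i <;> fin_cases j <;> simp [mul_comm]), hY]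
    have hSY : ∀ t, slY t ∈ S := fun t => by
      show n * φ (slY t) * n⁻¹ = φ (conjA c (slY t))
      rw [hY, h2, show conjA c (slY t) = slX (((c⁻¹ : Fˣ) : F) * t) from Subtype.ext (by
        rw [coe_conjA, coe_slX, coe_slY]
        ext i j; fin_cases i <;> fin_cases j <;> simp [div_eq_mul_inv, mul_comm]), hX]
    exact sl_generated S hSX (by rw [slW_eq]; exact mul_mem (mul_mem (hSX 1) (hSY (-1))) (hSX 1)) g

theorem slHom_hat {r : ℕ} {φ : Matrix.SpecialLinearGroup (Fin 2) F →* GL D.Idx F}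
    (hX : ∀ t, φ (slX t) = G.xg r t) (hY : ∀ t, φ (slY t) = G.xg (D.neg r) t) (a : F) :
    φ (slX a * slY (-a⁻¹) * slX a) = G.ng r a := by
  rw [map_mul, map_mul, hX, hY]; rfl

theorem conj_of_eq {φ : Matrix.SpecialLinearGroup (Fin 2) F →* GL D.Idx F} {n : GL D.Idx F} {c : Fˣ}
    (hint : ∀ g, n * φ g * n⁻¹ = φ (conjA c g)) {g k : Matrix.SpecialLinearGroup (Fin 2) F}
    (h : g = k * conjA c g) : φ g * n * (φ g)⁻¹ = φ k * n := by
  conv_lhs => arg 1; arg 1; rw [h, map_mul, ← hint]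
  group

variable (hF2 : (2 : F) ≠ 0)

include hF2 in
/-- If `c = d²`, conjugation turns `n` into `n_r(1/d) n`. -/
theorem flip_square {r : ℕ} (hr : r < D.nroots) {n : GL D.Idx F} {c d : Fˣ}
    (h1 : ∀ t : F, n * G.xg r t * n⁻¹ = G.xg (D.neg r) ((c : F) * t))
    (h2 : ∀ t : F, n * G.xg (D.neg r) t * n⁻¹ = G.xg r (((c⁻¹ : Fˣ) : F) * t)) (hd : c = d * d) :
    CJ G n (G.ng r (d : F)⁻¹ * n) := by
  obtain ⟨φ, hmem, hX, hY, hint⟩ := exists_intertwine G (F := F) hr
  have hd0 := d.ne_zero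
  let g : Matrix.SpecialLinearGroup (Fin 2) F := ⟨!![(d : F), 1; -2⁻¹, (2 * (d : F))⁻¹], by
    simp only [Matrix.det_fin_two_of]
    field_simp
    ring⟩
  refine ⟨φ g, hmem g, ?_⟩
  rw [conj_of_eq G (hint n c h1 h2) (k := slX (d : F)⁻¹ * slY (-((d : F)⁻¹)⁻¹) * slX (d : F)⁻¹) ?_,
    slHom_hat G hX hY]
  subst hd
  apply Subtype.ext
  rw [sl_mul_val, sl_mul_val, sl_mul_val, coe_conjA, coe_slX, coe_slY]
  ext i j
  fin_cases i <;> fin_cases j <;>
    simp [g, Matrix.mul_apply, Fin.sum_univ_two] <;> field_simp <;> ring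

omit hF2 in
/-- Conjugation multiplies `n` by `h_r(x)` when `x = a² - c b²`. -/
theorem flip_torus {r : ℕ} (hr : r < D.nroots) {n : GL D.Idx F} {c : Fˣ} {x a b : F}
    (h1 : ∀ t : F, n * G.xg r t * n⁻¹ = G.xg (D.neg r) ((c : F) * t))
    (h2 : ∀ t : F, n * G.xg (D.neg r) t * n⁻¹ = G.xg r (((c⁻¹ : Fˣ) : F) * t))
    (hx : x ≠ 0) (hab : a * a - (c : F) * (b * b) = x) :
    CJ G n (G.hg r x * n) := by
  obtain ⟨φ, hmem, hX, hY, hint⟩ := exists_intertwine G (F := F) hr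
  have hc := c.ne_zero
  let g : Matrix.SpecialLinearGroup (Fin 2) F := ⟨!![a, b; b * (c : F) / x, a / x], by
    simp only [Matrix.det_fin_two_of]
    field_simp
    linear_combination hab⟩
  refine ⟨φ g, hmem g, ?_⟩
  rw [conj_of_eq G (hint n c h1 h2)
    (k := (slX x * slY (-x⁻¹) * slX x) * (slX (-1) * slY (-(-1 : F)⁻¹) * slX (-1))) ?_,
    map_mul, slHom_hat G hX hY, slHom_hat G hX hY, Good.hg]
  apply Subtype.ext
  simp only [sl_mul_val, coe_conjA, coe_slX, coe_slY]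
  ext i j
  fin_cases i <;> fin_cases j <;>
    simp [g, Matrix.mul_apply, Fin.sum_univ_two] <;> field_simp <;> ring

end Cfsg.Agent.H90.Invol
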