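import Cfsg.Agent.H46.WeylPoly

/-!
# Bit masks for torus involutions

A torus involution is recorded by the bit mask of its `-1` coordinates; the fundamental reflections act on the masks,
and a scan of a word records how often a reflection fixes the involution.
-/

set_option autoImplicit false

namespace Cfsg.Agent.H90.Invol

open Cfsg.Lie Cfsg.Agent.H46

/-- Parity of the value of mask `ε` on the `i`-th fundamental root. -/
def parSlow (T : Tab) (l ε i : ℕ) : Bool :=
  decide (sumR (fun k => cond (ε.testBit k) (T.cm k i) 0) l % 2 = 1)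

/-- Table lookup of the parity. -/
def parTab (tbl ε i : ℕ) : Bool := Nat.beq ((tbl >>> (8 * ε + i)) % 2) 1

/-- The table is correct on all masks. -/
def chkTbl (T : Tab) (l tbl : ℕ) : Bool :=
  (List.range (2 ^ l)).all fun ε => (List.range l).all fun i => parTab tbl ε i == parSlow T l ε i

/-- Action of a fundamental reflection on masks. -/
def stepM (tbl i ε : ℕ) : ℕ := cond (parTab tbl ε i) (ε ^^^ 2 ^ i) ε

/-- One letter: new mask and number of fixing letters. -/
def scanOne (tbl i : ℕ) (s : ℕ × ℕ) : ℕ × ℕ :=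
  cond (parTab tbl s.1 i) (s.1 ^^^ 2 ^ i, s.2) (s.1, s.2 + 1)

/-- Scan a word from the right. -/
def scan (tbl : ℕ) (w : List ℕ) (ε : ℕ) : ℕ × ℕ := w.foldr (scanOne tbl) (ε, 0)

/-- Multiplication by `x ^ n`. -/
def shiftP : ℕ → List ℤ → List ℤ
  | 0, p => p
  | n + 1, p => 0 :: shiftP n p

/-- Insert into an association list of polynomials. -/
def insA (a : ℕ × List ℤ) : List (ℕ × List ℤ) → List (ℕ × List ℤ)
  | [] => [a]
  | b :: L => cond (Nat.beq a.1 b.1) ((b.1, addP a.2 b.2) :: L) (b :: insA a L)

/-- One step of the chain. -/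
def stepF (tbl : ℕ) (data : List (ℕ × ℕ)) (L : List (ℕ × List ℤ)) : List (ℕ × List ℤ) :=
  (data.flatMap fun e => L.map fun a =>
    ((scan tbl (wOf e) a.1).1, shiftP (scan tbl (wOf e) a.1).2 a.2)).foldr insA []

/-- Unpack coefficients to base `2 ^ 32`. -/
def decP : ℕ → ℕ → List ℤ
  | 0, _ => []
  | n + 1, c => Int.ofNat (c % 4294967296) :: decP n (c / 4294967296)

/-- Unpack a table of packed polynomials. -/
def decA (L : List (ℕ × ℕ × ℕ)) : List (ℕ × List ℤ) := L.map fun a => (a.1, decP a.2.1 a.2.2)

/-- Equality of tables. -/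
def eqA : List (ℕ × List ℤ) → List (ℕ × List ℤ) → Bool
  | [], [] => true
  | a :: L, b :: M => Nat.beq a.1 b.1 && eqInts a.2 b.2 && eqA L M
  | _, _ => false

/-- The part of a table at one mask. -/
def atMask (L : List (ℕ × List ℤ)) (ε : ℕ) : List ℤ :=
  L.foldr (fun a p => cond (Nat.beq a.1 ε) (addP a.2 p) p) []

/-- The last step, only at mask `ε'`; the mask before each word is found by scanning it backwards. -/
def finalF (tbl : ℕ) (data : List (ℕ × ℕ)) (L : List (ℕ × List ℤ)) (ε' : ℕ) : List ℤ :=
  data.foldr (fun e p => addP (shiftP (scan tbl (wOf e) (scan tbl (wOf e).reverse ε').1).2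
    (atMask L (scan tbl (wOf e).reverse ε').1)) p) []

/-- The tables of the chain: the first is `ε`, each is one step of the previous one. -/
def chkChain (tbl : ℕ) (cert : List (List (ℕ × ℕ))) (tabs : List (List (ℕ × ℕ × ℕ))) (n ε : ℕ) : Bool :=
  eqA (decA (tabs.getD 0 [])) [(ε, [1])] &&
    (List.range n).all fun k =>
      eqA (stepF tbl (cert.getD k []) (decA (tabs.getD k []))) (decA (tabs.getD (k + 1) []))

/-- The generating polynomial of the stabiliser of `ε`, times `(x - 1) ^ (n + 1)`, is the given product. -/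
def chkStab (tbl : ℕ) (cert : List (List (ℕ × ℕ))) (tabs : List (List (ℕ × ℕ × ℕ))) (n ε : ℕ)
    (degs : List ℕ) : Bool :=
  zeroP (addP (mulP (degPoly (List.replicate (n + 1) 1))
    (finalF tbl (cert.getD n []) (decA (tabs.getD n [])) ε)) ((degPoly degs).map fun b => (-1) * b))

/-- A list of masks, each with a letter leading to a later entry of the list; the last entry is the root. -/
def chkTree (tbl l root : ℕ) : List (ℕ × ℕ) → Bool
  | [] => true
  | a :: L => (Nat.beq a.1 root || (Nat.blt a.2 l && L.any fun b => Nat.beq b.1 (stepM tbl a.2 a.1))) &&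
      chkTree tbl l root L

/-- Every non-zero mask is in one of two trees. -/
def chkOrbits (tbl l ε₁ ε₂ : ℕ) (L₁ L₂ : List (ℕ × ℕ)) : Bool :=
  chkTree tbl l ε₁ L₁ && chkTree tbl l ε₂ L₂ &&
    (List.range (2 ^ l)).all fun a =>
      Nat.beq a 0 || (L₁.any fun b => Nat.beq b.1 a) || L₂.any fun b => Nat.beq b.1 a

/-- Non-orthogonal fundamental roots have an odd Cartan integer. -/
def chkOdd (T : Tab) (l : ℕ) : Bool :=
  (List.range l).all fun i => (List.range l).all fun j =>
    Nat.beq i j || decide ((T.cm i j = 0 ∧ T.cm j i = 0) ∨ T.cm i j % 2 = 1 ∨ T.cm j i % 2 = 1)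

end Cfsg.Agent.H90.Invol
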